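import Mathlib
import Cfsg.Prelude.Def_GeometricClasses
import Cfsg.Agent.Lib.Helper77.Asch.Defs

/-! Ladder ASCHC: Aschbacher's theorem for SL_n(q), n composite, neither a prime power nor a perfect power
(n = 6, 10, 12): definitions. -/

set_option autoImplicit false

namespace Cfsg.Agent.Lib.Helper5.AschC

open Cfsg Cfsg.Geo Cfsg.Agent.Lib.Helper77.Asch
open scoped MatrixGroups Matrix Kronecker

variable {n : ℕ} {F : Type*} [Field F]

/-- the subalgebra of the matrix algebra generated (= spanned) by a subgroup. -/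
def spanAlg (N : Subgroup (GL (Fin n) F)) : Subalgebra F (Matrix (Fin n) (Fin n) F) :=
  Algebra.adjoin F (matrixSet N)

/-- the centre of a subalgebra, as a subalgebra of the matrix algebra. -/
def cen (A : Subalgebra F (Matrix (Fin n) (Fin n) F)) : Subalgebra F (Matrix (Fin n) (Fin n) F) :=
  A ⊓ Subalgebra.centralizer F (A : Set (Matrix (Fin n) (Fin n) F))

/-- `I` is a two-sided ideal of the subalgebra `A` (as a subspace of the matrix algebra). -/
structure IsIdl (A : Subalgebra F (Matrix (Fin n) (Fin n) F))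
    (I : Submodule F (Matrix (Fin n) (Fin n) F)) : Prop where
  le : ∀ x ∈ I, x ∈ A
  mul_left : ∀ a ∈ A, ∀ x ∈ I, a * x ∈ I
  mul_right : ∀ a ∈ A, ∀ x ∈ I, x * a ∈ I

/-- `I` is a minimal non-zero two-sided ideal of `A`. -/
structure IsMinIdl (A : Subalgebra F (Matrix (Fin n) (Fin n) F))
    (I : Submodule F (Matrix (Fin n) (Fin n) F)) : Prop where
  idl : IsIdl A I
  ne_bot : I ≠ ⊥
  min : ∀ J : Submodule F (Matrix (Fin n) (Fin n) F), IsIdl A J → J ≤ I → J = ⊥ ∨ J = I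

/-- `A` acts faithfully and irreducibly on the (non-zero, `A`-invariant) subspace `U`. -/
structure FaithIrr (A : Subalgebra F (Matrix (Fin n) (Fin n) F)) (U : Submodule F (Fin n → F)) : Prop where
  ne_bot : U ≠ ⊥
  inv : ∀ a ∈ A, ∀ u ∈ U, a *ᵥ u ∈ U
  irr : ∀ W : Submodule F (Fin n → F), W ≤ U → (∀ a ∈ A, ∀ w ∈ W, a *ᵥ w ∈ W) → W = ⊥ ∨ W = U
  faith : ∀ a ∈ A, (∀ u ∈ U, a *ᵥ u = 0) → a = 0

/-- conjugation by `g` as an algebra endomorphism of the matrix algebra. -/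
def conjA (g : GL (Fin n) F) : Matrix (Fin n) (Fin n) F →ₐ[F] Matrix (Fin n) (Fin n) F where
  toFun x := (g : Matrix (Fin n) (Fin n) F) * x * ((g⁻¹ : GL (Fin n) F) : Matrix (Fin n) (Fin n) F)
  map_one' := by simp
  map_mul' x y := by
    have h : ((g⁻¹ : GL (Fin n) F) : Matrix (Fin n) (Fin n) F) * (g : Matrix (Fin n) (Fin n) F) = 1 := by
      rw [← Units.val_mul, inv_mul_cancel, Units.val_one]
    calc (g : Matrix (Fin n) (Fin n) F) * (x * y) * ((g⁻¹ : GL (Fin n) F) : Matrix (Fin n) (Fin n) F)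
        = (g : Matrix (Fin n) (Fin n) F) * x * 1 * y * ((g⁻¹ : GL (Fin n) F) : Matrix (Fin n) (Fin n) F) := by
          simp [mul_assoc]
      _ = _ := by rw [← h]; simp only [mul_assoc]
  map_zero' := by simp
  map_add' x y := by simp [mul_add, add_mul]
  commutes' c := by
    simp [Algebra.algebraMap_eq_smul_one]

@[simp] theorem conjA_apply (g : GL (Fin n) F) (x : Matrix (Fin n) (Fin n) F) :
    conjA g x = (g : Matrix (Fin n) (Fin n) F) * x * ((g⁻¹ : GL (Fin n) F) : Matrix (Fin n) (Fin n) F) := rfl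

/-- the matrix `P (x ⊗ 1) P⁻¹` in the coordinates given by `e`. -/
def kr {a b : ℕ} (e : Fin n ≃ Fin a × Fin b) (P : GL (Fin n) F) (x : Matrix (Fin a) (Fin a) F) :
    Matrix (Fin n) (Fin n) F :=
  (P : Matrix (Fin n) (Fin n) F) *
    Matrix.reindex e.symm e.symm (x ⊗ₖ (1 : Matrix (Fin b) (Fin b) F)) *
      ((P⁻¹ : GL (Fin n) F) : Matrix (Fin n) (Fin n) F)

/-- `H` lies in a member of one of the geometric classes (composite dimension, no C6, no C7). -/
def InGeoC [Fintype F] (H : Subgroup (GL (Fin n) F)) : Prop :=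
  (∃ W : Submodule F (Fin n → F), W ≠ ⊥ ∧ W ≠ ⊤ ∧ H ≤ subspaceStabilizer W) ∨
  (∃ (t m : ℕ) (D : Fin t → Submodule F (Fin n → F)), IsMDecomposition m D ∧ H ≤ decompositionStabilizer D) ∨
  (∃ (r : ℕ) (K : Subalgebra F (Matrix (Fin n) (Fin n) F)), r.Prime ∧ IsFieldSubalgebra r K ∧
      H ≤ subalgebraNormalizer K) ∨
  (∃ (a b : ℕ) (e : Fin n ≃ Fin a × Fin b) (P : GL (Fin n) F), 2 ≤ a ∧ 2 ≤ b ∧
      H ≤ tensorProductSubgroup a b e P) ∨
  (∃ (F₀ : Subfield F) (r : ℕ) (P : GL (Fin n) F), r.Prime ∧ Fintype.card F = Nat.card F₀ ^ r ∧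
      H ≤ subfieldSubgroup F₀ P) ∨
  (Odd (Fintype.card F) ∧ ∃ Q : (Fin n → F) → F, IsNondegenerateQuadraticForm Q ∧ H ≤ quadSimilarityGroup Q) ∨
  (∃ f : (Fin n → F) → (Fin n → F) → F, IsSymplecticForm f ∧ H ≤ similarityGroup f) ∨
  (∃ (σ : F ≃+* F) (f : (Fin n → F) → (Fin n → F) → F), IsUnitaryForm σ f ∧ H ≤ similarityGroup f)

end Cfsg.Agent.Lib.Helper5.AschC
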