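import Cfsg.Agent.Lib.Helper5.AschC.Defs

/-! Ladder ASCHC (S5799 + S5838 + S5862), rung TENS. -/

set_option autoImplicit false

namespace Cfsg.Agent.Lib.Helper5.AschC

open Cfsg Cfsg.Geo Cfsg.Agent.Lib.Helper77.Asch
open scoped MatrixGroups Matrix Kronecker

variable {n : ℕ} {F : Type*} [Field F]

/-- abstract form: a module over `M_a(F)` has a basis `B (i, j)` on which `M_a(F)` acts naturally
on the first index. -/
theorem tens_basis {V : Type*} [AddCommGroup V] [Module F V] [Module.Finite F V] {a : ℕ}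
    (ha : 0 < a) (ψ : Matrix (Fin a) (Fin a) F →ₐ[F] Module.End F V) :
    ∃ (b : ℕ) (B : Module.Basis (Fin a × Fin b) F V),
      ∀ x i j, ψ x (B (i, j)) = ∑ k, x k i • B (k, j) := by
  classical
  set i₀ : Fin a := ⟨0, ha⟩ with hi₀
  set E : Fin a → Fin a → Module.End F V := fun i j => ψ (Matrix.single i j 1) with hE
  have hmul : ∀ i j k l, E i j * E k l = if j = k then E i l else 0 := by
    intro i j k l
    simp only [hE, ← map_mul]
    split_ifs with h
    · subst h
      rw [Matrix.single_mul_single_same, mul_one]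
    · rw [Matrix.single_mul_single_of_ne _ _ _ _ h, map_zero]
  have hsum : ∑ i, E i i = 1 := by
    simp only [hE, ← map_sum]
    have h1 : ∑ i : Fin a, Matrix.single i i (1 : F) = 1 := by
      ext r s
      rw [Matrix.sum_apply, Matrix.one_apply, Finset.sum_eq_single r]
      · simp [Matrix.single_apply]
      · intro c _ hc
        simp [hc]
      · simp
    rw [h1, map_one]
  set V₁ := LinearMap.range (E i₀ i₀) with hV₁
  set b := Module.finrank F V₁ with hb
  let u : Module.Basis (Fin b) F V₁ := Module.finBasis F V₁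
  have hu : ∀ j, E i₀ i₀ (u j : V) = u j := by
    intro j
    obtain ⟨y, hy⟩ := (u j).2
    rw [← hy, ← Module.End.mul_apply, hmul, if_pos rfl]
  let w : Fin a × Fin b → V := fun p => E p.1 i₀ (u p.2)
  have hli : LinearIndependent F w := by
    rw [Fintype.linearIndependent_iff]
    intro g hg p
    obtain ⟨i, j⟩ := p
    have h1 := congrArg (E i₀ i) hg
    rw [map_sum, map_zero, Fintype.sum_prod_type] at h1
    have h2 : ∀ x y, E i₀ i (g (x, y) • w (x, y)) = if i = x then g (x, y) • (u y : V) else 0 := by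
      intro x y
      rw [map_smul]
      change g (x, y) • E i₀ i (E x i₀ (u y)) = _
      rw [← Module.End.mul_apply, hmul]
      split_ifs with h
      · rw [hu]
      · simp
    simp only [h2] at h1
    rw [Finset.sum_eq_single i (by
      intro x _ hx
      apply Finset.sum_eq_zero
      intro y _
      rw [if_neg (Ne.symm hx)]) (by simp)] at h1
    simp only [if_true] at h1
    have h3 : ∑ y, g (i, y) • u y = 0 := by
      apply Subtype.ext
      simpa using h1
    exact Fintype.linearIndependent_iff.1 u.linearIndependent (fun y => g (i, y)) h3 j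
  have hsp : ⊤ ≤ Submodule.span F (Set.range w) := by
    intro v _
    have h1 : v = ∑ i, E i i₀ (E i₀ i v) := by
      have h0 : (∑ i, E i i) v = v := by rw [hsum]; rfl
      rw [LinearMap.sum_apply] at h0
      rw [← h0]
      refine Finset.sum_congr rfl fun i _ => ?_
      rw [h0, ← Module.End.mul_apply, hmul, if_pos rfl]
    rw [h1]
    refine Submodule.sum_mem _ fun i _ => ?_
    have h2 : E i₀ i v ∈ V₁ := ⟨E i₀ i v, by rw [← Module.End.mul_apply, hmul, if_pos rfl]⟩
    have h3 := u.sum_repr ⟨E i₀ i v, h2⟩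
    have h4 : E i₀ i v = ∑ j, u.repr ⟨_, h2⟩ j • (u j : V) := by
      have h5 := congrArg Subtype.val h3
      rw [AddSubmonoidClass.coe_finsetSum] at h5
      exact h5.symm
    rw [h4, map_sum]
    refine Submodule.sum_mem _ fun j _ => ?_
    rw [map_smul]
    exact Submodule.smul_mem _ _ (Submodule.subset_span ⟨(i, j), rfl⟩)
  refine ⟨b, Module.Basis.mk hli hsp, ?_⟩
  intro x i j
  simp only [Module.Basis.mk_apply]
  change ψ x (E i i₀ (u j)) = ∑ k, x k i • E k i₀ (u j)
  rw [← Module.End.mul_apply]
  have h5 : ψ x * E i i₀ = ∑ k, x k i • E k i₀ := by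
    simp only [hE, ← map_mul, ← map_smul, ← map_sum]
    congr 1
    ext r s
    by_cases hs : i₀ = s <;>
      simp [Matrix.mul_apply, Matrix.single_apply, Matrix.sum_apply, hs]
  rw [h5, LinearMap.sum_apply]
  simp

theorem tens {a : ℕ} (ha : 0 < a) (φ : Matrix (Fin a) (Fin a) F →ₐ[F] Matrix (Fin n) (Fin n) F) :
    ∃ (b : ℕ) (e : Fin n ≃ Fin a × Fin b) (P : GL (Fin n) F), ∀ x, φ x = kr e P x := by
  classical
  obtain ⟨b, B, hB⟩ := tens_basis ha
    ((Matrix.toLinAlgEquiv' (R := F) (n := Fin n)).toAlgHom.comp φ)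
  let S := Pi.basisFun F (Fin n)
  let e : Fin n ≃ Fin a × Fin b := S.indexEquiv B
  let B' : Module.Basis (Fin n) F (Fin n → F) := B.reindex e.symm
  have h1 : S.toMatrix B' * B'.toMatrix S = 1 := Module.Basis.toMatrix_mul_toMatrix_flip S B'
  have h2 : B'.toMatrix S * S.toMatrix B' = 1 := Module.Basis.toMatrix_mul_toMatrix_flip _ _
  let P : GL (Fin n) F := ⟨S.toMatrix B', B'.toMatrix S, h1, h2⟩
  refine ⟨b, e, P, fun x => ?_⟩
  have h3 := basis_toMatrix_mul_linearMap_toMatrix_mul_basis_toMatrix S B' S B'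
    (Matrix.toLin' (φ x))
  have h4 : LinearMap.toMatrix S S (Matrix.toLin' (φ x)) = φ x := by
    rw [LinearMap.toMatrix_eq_toMatrix', LinearMap.toMatrix'_toLin']
  rw [h4] at h3
  rw [← h3]
  unfold kr
  have h5 : LinearMap.toMatrix B' B' (Matrix.toLin' (φ x)) =
      Matrix.reindex e.symm e.symm (x ⊗ₖ (1 : Matrix (Fin b) (Fin b) F)) := by
    ext k l
    rw [LinearMap.toMatrix_apply]
    have h6 : Matrix.toLin' (φ x) (B' l) = ∑ k, x k (e l).1 • B (k, (e l).2) := by
      have := hB x (e l).1 (e l).2
      simpa [B'] using this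
    rw [h6]
    simp only [map_sum, map_smul, Finsupp.coe_finsetSum, Finsupp.coe_smul, Finset.sum_apply,
      Pi.smul_apply, smul_eq_mul]
    have h7 : ∀ c, B'.repr (B (c, (e l).2)) k = if (c, (e l).2) = e k then 1 else 0 := by
      intro c
      rw [Module.Basis.repr_reindex_apply, Module.Basis.repr_self, Finsupp.single_apply]
      simp
    simp only [h7, Matrix.reindex_apply, Matrix.submatrix_apply, Matrix.kroneckerMap_apply,
      Equiv.symm_symm, Matrix.one_apply]
    rw [Finset.sum_eq_single (e k).1]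
    · by_cases h : (e k).2 = (e l).2
      · have h8 : ((e k).1, (e l).2) = e k := Prod.ext rfl h.symm
        rw [if_pos h, if_pos h8]
      · have h8 : ¬ ((e k).1, (e l).2) = e k := fun h' => h (congrArg Prod.snd h').symm
        rw [if_neg h, if_neg h8]
    · intro c _ hc
      rw [if_neg (fun h' => hc (congrArg Prod.fst h')), mul_zero]
    · simp
  rw [h5]
  rfl

end Cfsg.Agent.Lib.Helper5.AschC
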