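import Cfsg.Agent.Lib.Helper5.AschC.Defs

/-! Ladder ASCHC (S5799 + S5838 + S5862), rung COMT. -/

set_option autoImplicit false

namespace Cfsg.Agent.Lib.Helper5.AschC

open Cfsg Cfsg.Geo Cfsg.Agent.Lib.Helper77.Asch
open scoped MatrixGroups Matrix Kronecker

variable {n : ℕ} {F : Type*} [Field F]

/-- COMT.  c commutes with `single i j 1 ⊗ₖ 1` for all i j: compare entries: c (i,k) (j,l) = 0 for i ≠ j and c (i,k) (i,l) = c (j,k) (j,l).  z k l := c (i₀,k) (i₀,l). -/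
theorem comm_kron {a b : ℕ} (ha : 0 < a) (c : Matrix (Fin a × Fin b) (Fin a × Fin b) F)
    (hc : ∀ x : Matrix (Fin a) (Fin a) F, c * (x ⊗ₖ (1 : Matrix (Fin b) (Fin b) F)) = (x ⊗ₖ (1 : Matrix (Fin b) (Fin b) F)) * c) :
    ∃ z : Matrix (Fin b) (Fin b) F, c = (1 : Matrix (Fin a) (Fin a) F) ⊗ₖ z := by
  classical
  refine ⟨Matrix.of fun k l => c (⟨0, ha⟩, k) (⟨0, ha⟩, l), ?_⟩
  ext ⟨p, k⟩ ⟨q, l⟩
  have h := congrFun (congrFun (hc (Matrix.single q ⟨0, ha⟩ 1)) (p, k)) (⟨0, ha⟩, l)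
  simp only [Matrix.mul_apply, Matrix.kroneckerMap_apply, Fintype.sum_prod_type, Matrix.single_apply,
    Matrix.one_apply] at h
  have h1 : (∑ x : Fin a, ∑ y : Fin b, c (p, k) (x, y) *
      ((if q = x ∧ True then (1 : F) else 0) * if y = l then 1 else 0)) = c (p, k) (q, l) := by
    rw [Finset.sum_eq_single q, Finset.sum_eq_single l]
    · simp
    · intro y _ hy; simp [hy]
    · simp
    · intro x _ hx
      apply Finset.sum_eq_zero
      intro y _
      simp [Ne.symm hx]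
    · simp
  have h2 : (∑ x : Fin a, ∑ y : Fin b,
      ((if q = p ∧ (⟨0, ha⟩ : Fin a) = x then (1 : F) else 0) * if k = y then 1 else 0) * c (x, y) (⟨0, ha⟩, l)) =
      if p = q then c (⟨0, ha⟩, k) (⟨0, ha⟩, l) else 0 := by
    rw [Finset.sum_eq_single ⟨0, ha⟩, Finset.sum_eq_single k]
    · by_cases hpq : p = q
      · simp [hpq]
      · simp [hpq, Ne.symm hpq]
    · intro y _ hy; simp [Ne.symm hy]
    · simp
    · intro x _ hx
      apply Finset.sum_eq_zero
      intro y _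
      simp [Ne.symm hx]
    · simp
  rw [h1, h2] at h
  rw [h, Matrix.kroneckerMap_apply, Matrix.one_apply, Matrix.of_apply]
  by_cases hpq : p = q <;> simp [hpq]

end Cfsg.Agent.Lib.Helper5.AschC
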