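import Cfsg.Agent.Lib.Helper5.AschC.Defs
import Cfsg.Agent.Lib.Helper5.AschC.COMT

/-! Ladder ASCHC (S5799 + S5838 + S5862), rung NTEN. -/

set_option autoImplicit false

namespace Cfsg.Agent.Lib.Helper5.AschC

open Cfsg Cfsg.Geo Cfsg.Agent.Lib.Helper77.Asch
open scoped MatrixGroups Matrix Kronecker

variable {n : ℕ} {F : Type*} [Field F]

/-- Skolem–Noether for the full matrix algebra, in matrix form. -/
theorem nten_inner {a : ℕ} (α : Matrix (Fin a) (Fin a) F ≃ₐ[F] Matrix (Fin a) (Fin a) F) :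
    ∃ y : GL (Fin a) F, ∀ x, α x = (y : Matrix (Fin a) (Fin a) F) * x *
      ((y⁻¹ : GL (Fin a) F) : Matrix (Fin a) (Fin a) F) := by
  classical
  let E : Matrix (Fin a) (Fin a) F ≃ₐ[F] ((Fin a → F) →ₗ[F] (Fin a → F)) := Matrix.toLinAlgEquiv'
  obtain ⟨T, hT⟩ := ((E.symm.trans α).trans E).eq_linearEquivConjAlgEquiv
  have h1 : LinearMap.toMatrix' (T : (Fin a → F) →ₗ[F] (Fin a → F)) *
      LinearMap.toMatrix' (T.symm : (Fin a → F) →ₗ[F] (Fin a → F)) = 1 := by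
    rw [← LinearMap.toMatrix'_comp]
    simp
  have h2 : LinearMap.toMatrix' (T.symm : (Fin a → F) →ₗ[F] (Fin a → F)) *
      LinearMap.toMatrix' (T : (Fin a → F) →ₗ[F] (Fin a → F)) = 1 := by
    rw [← LinearMap.toMatrix'_comp]
    simp
  refine ⟨⟨_, _, h1, h2⟩, ?_⟩
  intro x
  have h3 := congrArg (fun f => f (E x)) hT
  simp only [AlgEquiv.trans_apply, AlgEquiv.symm_apply_apply, LinearEquiv.conjAlgEquiv_apply] at h3
  have h4 : α x = E.symm (E (α x)) := (E.symm_apply_apply _).symm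
  rw [h4, h3]
  have h6 : ∀ f : (Fin a → F) →ₗ[F] (Fin a → F), E.symm f = LinearMap.toMatrix' f := fun f => rfl
  rw [h6, LinearMap.toMatrix'_comp, LinearMap.toMatrix'_comp]
  have h5 : LinearMap.toMatrix' (E x) = x := by
    show LinearMap.toMatrix' (Matrix.toLin' x) = x
    exact LinearMap.toMatrix'_toLin' x
  rw [h5, mul_assoc]
  rfl

/-- undo the coordinates: `M ↦ reindex e e (P⁻¹ M P)`. -/
noncomputable def ntenU {a b : ℕ} (e : Fin n ≃ Fin a × Fin b) (P : GL (Fin n) F) :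
    Matrix (Fin n) (Fin n) F →ₐ[F] Matrix (Fin a × Fin b) (Fin a × Fin b) F :=
  (Matrix.reindexAlgEquiv F F e).toAlgHom.comp (conjA P⁻¹)

theorem ntenU_apply {a b : ℕ} (e : Fin n ≃ Fin a × Fin b) (P : GL (Fin n) F)
    (M : Matrix (Fin n) (Fin n) F) :
    ntenU e P M = Matrix.reindex e e (((P⁻¹ : GL (Fin n) F) : Matrix (Fin n) (Fin n) F) * M *
      (P : Matrix (Fin n) (Fin n) F)) := by
  simp [ntenU]

theorem ntenU_kr {a b : ℕ} (e : Fin n ≃ Fin a × Fin b) (P : GL (Fin n) F)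
    (x : Matrix (Fin a) (Fin a) F) :
    ntenU e P (kr e P x) = x ⊗ₖ (1 : Matrix (Fin b) (Fin b) F) := by
  have h : ((P⁻¹ : GL (Fin n) F) : Matrix (Fin n) (Fin n) F) * (P : Matrix (Fin n) (Fin n) F) = 1 := by
    rw [← Units.val_mul, inv_mul_cancel, Units.val_one]
  rw [ntenU_apply, kr]
  have h1 : ((P⁻¹ : GL (Fin n) F) : Matrix (Fin n) (Fin n) F) *
      ((P : Matrix (Fin n) (Fin n) F) *
        Matrix.reindex e.symm e.symm (x ⊗ₖ (1 : Matrix (Fin b) (Fin b) F)) *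
        ((P⁻¹ : GL (Fin n) F) : Matrix (Fin n) (Fin n) F)) * (P : Matrix (Fin n) (Fin n) F) =
      Matrix.reindex e.symm e.symm (x ⊗ₖ (1 : Matrix (Fin b) (Fin b) F)) := by
    calc _ = (((P⁻¹ : GL (Fin n) F) : Matrix (Fin n) (Fin n) F) * (P : Matrix (Fin n) (Fin n) F)) *
        Matrix.reindex e.symm e.symm (x ⊗ₖ (1 : Matrix (Fin b) (Fin b) F)) *
        (((P⁻¹ : GL (Fin n) F) : Matrix (Fin n) (Fin n) F) * (P : Matrix (Fin n) (Fin n) F)) := by
          simp only [mul_assoc]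
      _ = _ := by rw [h, one_mul, mul_one]
  rw [h1]
  ext i j
  simp

theorem ntens (hn : 0 < n) {a b : ℕ} (e : Fin n ≃ Fin a × Fin b) (P : GL (Fin n) F)
    (φ : Matrix (Fin a) (Fin a) F →ₐ[F] Matrix (Fin n) (Fin n) F) (hφ : ∀ x, φ x = kr e P x) :
    subalgebraNormalizer φ.range ≤ tensorProductSubgroup a b e P := by
  classical
  intro g hg
  have ha : 0 < a := Fin.pos (e ⟨0, hn⟩).1
  have hb : 0 < b := Fin.pos (e ⟨0, hn⟩).2
  have hU : ∀ x, ntenU e P (φ x) = x ⊗ₖ (1 : Matrix (Fin b) (Fin b) F) := fun x => by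
    rw [hφ, ntenU_kr]
  have hinj : Function.Injective φ := by
    intro x x' h
    have h2 : x ⊗ₖ (1 : Matrix (Fin b) (Fin b) F) = x' ⊗ₖ (1 : Matrix (Fin b) (Fin b) F) := by
      rw [← hU, ← hU, h]
    ext i j
    have := congrFun (congrFun h2 (i, ⟨0, hb⟩)) (j, ⟨0, hb⟩)
    simpa [Matrix.kroneckerMap_apply] using this
  have hgi : ((g⁻¹ : GL (Fin n) F) : Matrix (Fin n) (Fin n) F) * (g : Matrix (Fin n) (Fin n) F) = 1 := by
    rw [← Units.val_mul, inv_mul_cancel, Units.val_one]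
  have hgi' : (g : Matrix (Fin n) (Fin n) F) * ((g⁻¹ : GL (Fin n) F) : Matrix (Fin n) (Fin n) F) = 1 := by
    rw [← Units.val_mul, mul_inv_cancel, Units.val_one]
  -- the automorphism
  have hmem : ∀ x, (conjA g).comp φ x ∈ φ.range := by
    intro x
    exact (hg (φ x)).1 ⟨x, rfl⟩
  let φ' : Matrix (Fin a) (Fin a) F ≃ₐ[F] φ.range := AlgEquiv.ofInjective φ hinj
  let α₀ : Matrix (Fin a) (Fin a) F →ₐ[F] Matrix (Fin a) (Fin a) F :=
    φ'.symm.toAlgHom.comp (((conjA g).comp φ).codRestrict φ.range hmem)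
  have hα₀ : ∀ x, φ (α₀ x) = conjA g (φ x) := by
    intro x
    have h1 : φ' (α₀ x) = (((conjA g).comp φ).codRestrict φ.range hmem) x := by
      simp [α₀]
    have h2 := congrArg Subtype.val h1
    simpa [φ'] using h2
  have hα₀inj : Function.Injective α₀ := by
    intro x x' h
    apply hinj
    have h1 : conjA g (φ x) = conjA g (φ x') := by rw [← hα₀, ← hα₀, h]
    simp only [conjA_apply] at h1
    calc φ x = (((g⁻¹ : GL (Fin n) F) : Matrix (Fin n) (Fin n) F) * (g : Matrix (Fin n) (Fin n) F)) * φ x *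
          (((g⁻¹ : GL (Fin n) F) : Matrix (Fin n) (Fin n) F) * (g : Matrix (Fin n) (Fin n) F)) := by
            rw [hgi, one_mul, mul_one]
      _ = ((g⁻¹ : GL (Fin n) F) : Matrix (Fin n) (Fin n) F) * ((g : Matrix (Fin n) (Fin n) F) * φ x *
          ((g⁻¹ : GL (Fin n) F) : Matrix (Fin n) (Fin n) F)) * (g : Matrix (Fin n) (Fin n) F) := by
            simp only [mul_assoc]
      _ = ((g⁻¹ : GL (Fin n) F) : Matrix (Fin n) (Fin n) F) * ((g : Matrix (Fin n) (Fin n) F) * φ x' *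
          ((g⁻¹ : GL (Fin n) F) : Matrix (Fin n) (Fin n) F)) * (g : Matrix (Fin n) (Fin n) F) := by
            rw [h1]
      _ = (((g⁻¹ : GL (Fin n) F) : Matrix (Fin n) (Fin n) F) * (g : Matrix (Fin n) (Fin n) F)) * φ x' *
          (((g⁻¹ : GL (Fin n) F) : Matrix (Fin n) (Fin n) F) * (g : Matrix (Fin n) (Fin n) F)) := by
            simp only [mul_assoc]
      _ = φ x' := by rw [hgi, one_mul, mul_one]
  have hα₀surj : Function.Surjective α₀ :=
    (LinearMap.injective_iff_surjective (f := α₀.toLinearMap)).1 hα₀inj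
  let α : Matrix (Fin a) (Fin a) F ≃ₐ[F] Matrix (Fin a) (Fin a) F :=
    AlgEquiv.ofBijective α₀ ⟨hα₀inj, hα₀surj⟩
  obtain ⟨y, hy⟩ := nten_inner α
  have hy' : ∀ x, α₀ x = (y : Matrix (Fin a) (Fin a) F) * x *
      ((y⁻¹ : GL (Fin a) F) : Matrix (Fin a) (Fin a) F) := fun x => hy x
  have hyi : ((y⁻¹ : GL (Fin a) F) : Matrix (Fin a) (Fin a) F) * (y : Matrix (Fin a) (Fin a) F) = 1 := by
    rw [← Units.val_mul, inv_mul_cancel, Units.val_one]
  have hyi' : (y : Matrix (Fin a) (Fin a) F) * ((y⁻¹ : GL (Fin a) F) : Matrix (Fin a) (Fin a) F) = 1 := by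
    rw [← Units.val_mul, mul_inv_cancel, Units.val_one]
  set g' := ntenU e P (g : Matrix (Fin n) (Fin n) F) with hg'
  set g'' := ntenU e P ((g⁻¹ : GL (Fin n) F) : Matrix (Fin n) (Fin n) F) with hg''
  have hgg : g'' * g' = 1 := by rw [hg', hg'', ← map_mul, hgi, map_one]
  have hgg' : g' * g'' = 1 := by rw [hg', hg'', ← map_mul, hgi', map_one]
  set Y := (y : Matrix (Fin a) (Fin a) F) ⊗ₖ (1 : Matrix (Fin b) (Fin b) F) with hY
  set Y' := ((y⁻¹ : GL (Fin a) F) : Matrix (Fin a) (Fin a) F) ⊗ₖ (1 : Matrix (Fin b) (Fin b) F) with hY'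
  have hYY : Y' * Y = 1 := by
    rw [hY, hY', ← Matrix.mul_kronecker_mul, hyi, one_mul, Matrix.one_kronecker_one]
  have hYY' : Y * Y' = 1 := by
    rw [hY, hY', ← Matrix.mul_kronecker_mul, hyi', one_mul, Matrix.one_kronecker_one]
  have hkey : ∀ x : Matrix (Fin a) (Fin a) F,
      Y * (x ⊗ₖ (1 : Matrix (Fin b) (Fin b) F)) * Y' = g' * (x ⊗ₖ (1 : Matrix (Fin b) (Fin b) F)) * g'' := by
    intro x
    have h1 := congrArg (ntenU e P) (hα₀ x)
    rw [hU, hy', conjA_apply, map_mul, map_mul, hU] at h1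
    rw [← h1, hY, hY', ← Matrix.mul_kronecker_mul, ← Matrix.mul_kronecker_mul, one_mul, one_mul]
  obtain ⟨z, hz⟩ := comm_kron ha (Y' * g') (by
    intro x
    calc Y' * g' * (x ⊗ₖ (1 : Matrix (Fin b) (Fin b) F))
        = Y' * (g' * (x ⊗ₖ (1 : Matrix (Fin b) (Fin b) F)) * g'') * g' := by
          have h0 : Y' * (g' * (x ⊗ₖ (1 : Matrix (Fin b) (Fin b) F)) * g'') * g' =
              Y' * g' * (x ⊗ₖ (1 : Matrix (Fin b) (Fin b) F)) * (g'' * g') := by simp only [mul_assoc]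
          rw [h0, hgg, mul_one]
      _ = Y' * (Y * (x ⊗ₖ (1 : Matrix (Fin b) (Fin b) F)) * Y') * g' := by rw [hkey]
      _ = (Y' * Y) * (x ⊗ₖ (1 : Matrix (Fin b) (Fin b) F)) * (Y' * g') := by simp only [mul_assoc]
      _ = (x ⊗ₖ (1 : Matrix (Fin b) (Fin b) F)) * (Y' * g') := by rw [hYY, one_mul])
  have hgyz : g' = (y : Matrix (Fin a) (Fin a) F) ⊗ₖ z := by
    calc g' = (Y * Y') * g' := by rw [hYY', one_mul]
      _ = Y * (Y' * g') := by rw [mul_assoc]
      _ = _ := by rw [hz, hY, ← Matrix.mul_kronecker_mul, mul_one, one_mul]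
  have hdz : z.det ≠ 0 := by
    intro h0
    have h1 : g'.det = 0 := by
      rw [hgyz, Matrix.det_kronecker, h0]
      simp [ha.ne']
    have h2 := congrArg Matrix.det hgg'
    rw [Matrix.det_mul, h1, zero_mul, Matrix.det_one] at h2
    exact zero_ne_one h2
  let zz : GL (Fin b) F := Matrix.GeneralLinearGroup.mkOfDetNeZero z hdz
  unfold tensorProductSubgroup
  refine ⟨P⁻¹ * g * P, ⟨(glReindex e.symm).symm (P⁻¹ * g * P), ⟨y, zz, ?_⟩, ?_⟩, ?_⟩
  · have h1 : (((glReindex e.symm).symm (P⁻¹ * g * P) : GL (Fin a × Fin b) F) :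
        Matrix (Fin a × Fin b) (Fin a × Fin b) F) = g' := by
      rw [hg', ntenU_apply]
      ext i j
      simp [glReindex]
    rw [h1, hgyz]
    rfl
  · simp
  · simp [mul_assoc]

end Cfsg.Agent.Lib.Helper5.AschC
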