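import Cfsg.Agent.Lib.Helper5.AschC.Defs

/-! Ladder ASCHC (S5799 + S5838 + S5862), rung TQ2 (helper76). -/

set_option autoImplicit false

namespace Cfsg.Agent.Lib.Helper5.AschC

open Cfsg Cfsg.Geo Cfsg.Agent.Lib.Helper77.Asch
open scoped MatrixGroups Matrix Kronecker

variable {n : ℕ} {F : Type*} [Field F]

theorem tq2_inv_mul (P : GL (Fin n) F) :
    ((P⁻¹ : GL (Fin n) F) : Matrix (Fin n) (Fin n) F) * (P : Matrix (Fin n) (Fin n) F) = 1 := by
  rw [← Units.val_mul, inv_mul_cancel, Units.val_one]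

theorem tq2_mul_inv (P : GL (Fin n) F) :
    (P : Matrix (Fin n) (Fin n) F) * ((P⁻¹ : GL (Fin n) F) : Matrix (Fin n) (Fin n) F) = 1 := by
  rw [← Units.val_mul, mul_inv_cancel, Units.val_one]

/-- `P X P⁻¹ * P Y P⁻¹ = P (X Y) P⁻¹`. -/
theorem tq2_conj_mul (P : GL (Fin n) F) (X Y : Matrix (Fin n) (Fin n) F) :
    ((P : Matrix (Fin n) (Fin n) F) * X * ((P⁻¹ : GL (Fin n) F) : Matrix (Fin n) (Fin n) F)) *
      ((P : Matrix (Fin n) (Fin n) F) * Y * ((P⁻¹ : GL (Fin n) F) : Matrix (Fin n) (Fin n) F)) =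
    (P : Matrix (Fin n) (Fin n) F) * (X * Y) * ((P⁻¹ : GL (Fin n) F) : Matrix (Fin n) (Fin n) F) := by
  calc _ = (P : Matrix (Fin n) (Fin n) F) * X *
        (((P⁻¹ : GL (Fin n) F) : Matrix (Fin n) (Fin n) F) * (P : Matrix (Fin n) (Fin n) F)) * Y *
          ((P⁻¹ : GL (Fin n) F) : Matrix (Fin n) (Fin n) F) := by simp only [Matrix.mul_assoc]
    _ = _ := by rw [tq2_inv_mul, Matrix.mul_one]; simp only [Matrix.mul_assoc]

theorem tq2_reindex_mul {a b : ℕ} (e : Fin n ≃ Fin a × Fin b)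
    (X Y : Matrix (Fin a × Fin b) (Fin a × Fin b) F) :
    Matrix.reindex e.symm e.symm (X * Y) =
      Matrix.reindex e.symm e.symm X * Matrix.reindex e.symm e.symm Y := by
  simp [Matrix.reindex_apply, Matrix.submatrix_mul_equiv]

theorem tq2_kr_mul {a b : ℕ} (e : Fin n ≃ Fin a × Fin b) (P : GL (Fin n) F)
    (x y : Matrix (Fin a) (Fin a) F) : kr e P (x * y) = kr e P x * kr e P y := by
  unfold kr
  rw [tq2_conj_mul, ← tq2_reindex_mul, ← Matrix.mul_kronecker_mul, Matrix.one_mul]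

theorem tq2_kr_one {a b : ℕ} (e : Fin n ≃ Fin a × Fin b) (P : GL (Fin n) F) :
    kr e P (1 : Matrix (Fin a) (Fin a) F) = 1 := by
  unfold kr
  rw [Matrix.one_kronecker_one]
  simp [Matrix.reindex_apply]

theorem tq2_kr_add {a b : ℕ} (e : Fin n ≃ Fin a × Fin b) (P : GL (Fin n) F)
    (x y : Matrix (Fin a) (Fin a) F) : kr e P (x + y) = kr e P x + kr e P y := by
  unfold kr
  rw [Matrix.add_kronecker]
  simp only [Matrix.reindex_apply, Matrix.submatrix_add, Pi.add_apply, Matrix.mul_add,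
    Matrix.add_mul]

/-- unfolding of membership in the tensor product subgroup. -/
theorem tq2_mem {a b : ℕ} (e : Fin n ≃ Fin a × Fin b) (P g : GL (Fin n) F)
    (hg : g ∈ tensorProductSubgroup a b e P) :
    ∃ (x : GL (Fin a) F) (y : GL (Fin b) F), (g : Matrix (Fin n) (Fin n) F) =
      (P : Matrix (Fin n) (Fin n) F) * Matrix.reindex e.symm e.symm
        ((x : Matrix (Fin a) (Fin a) F) ⊗ₖ (y : Matrix (Fin b) (Fin b) F)) *
        ((P⁻¹ : GL (Fin n) F) : Matrix (Fin n) (Fin n) F) := by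
  obtain ⟨g1, hg1, rfl⟩ := hg
  obtain ⟨k, hk, rfl⟩ := hg1
  obtain ⟨x, y, hxy⟩ := hk
  refine ⟨x, y, ?_⟩
  rw [← hxy]
  rfl

/-- conjugation by an element of the tensor product subgroup acts on `kr`. -/
theorem tq2_conj_kr {a b : ℕ} (e : Fin n ≃ Fin a × Fin b) (P g : GL (Fin n) F)
    (hg : g ∈ tensorProductSubgroup a b e P) :
    ∃ x : GL (Fin a) F, ∀ w : Matrix (Fin a) (Fin a) F,
      (g : Matrix (Fin n) (Fin n) F) * kr e P w * ((g⁻¹ : GL (Fin n) F) : Matrix (Fin n) (Fin n) F) =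
        kr e P ((x : Matrix (Fin a) (Fin a) F) * w * ((x⁻¹ : GL (Fin a) F) : Matrix (Fin a) (Fin a) F)) := by
  obtain ⟨x, y, hxy⟩ := tq2_mem e P g hg
  refine ⟨x, fun w => ?_⟩
  have h1 : (g : Matrix (Fin n) (Fin n) F) * kr e P w =
      kr e P ((x : Matrix (Fin a) (Fin a) F) * w * ((x⁻¹ : GL (Fin a) F) : Matrix (Fin a) (Fin a) F)) *
        (g : Matrix (Fin n) (Fin n) F) := by
    rw [hxy]
    unfold kr
    rw [tq2_conj_mul, tq2_conj_mul, ← tq2_reindex_mul, ← tq2_reindex_mul,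
      ← Matrix.mul_kronecker_mul, ← Matrix.mul_kronecker_mul, Matrix.mul_one, Matrix.one_mul,
      Matrix.mul_assoc _ _ (x : Matrix (Fin a) (Fin a) F), tq2_inv_mul, Matrix.mul_one]
  rw [h1, Matrix.mul_assoc, tq2_mul_inv, Matrix.mul_one]

theorem tq2_zero_or_one [Fintype F] (hF : Fintype.card F = 2) (x : F) : x = 0 ∨ x = 1 := by
  classical
  by_contra hx
  push Not at hx
  have h : ({0, 1, x} : Finset F).card ≤ Fintype.card F := Finset.card_le_univ _
  rw [Finset.card_insert_of_notMem (by simp [hx.1.symm]),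
    Finset.card_insert_of_notMem (by simp [hx.2.symm]), Finset.card_singleton] at h
  omega

theorem tq2_two [Fintype F] (hF : Fintype.card F = 2) : (1 : F) + 1 = 0 := by
  rcases tq2_zero_or_one hF ((1 : F) + 1) with h | h
  · exact h
  · exfalso
    have : (1 : F) = 0 := by linear_combination h
    exact one_ne_zero this

theorem tq2_class [Fintype F] (hF : Fintype.card F = 2) (z : Matrix (Fin 2) (Fin 2) F)
    (hz : z * z = z + 1) : z = !![0, 1; 1, 1] ∨ z = !![0, 1; 1, 1] + 1 := by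
  have h2 := tq2_two hF
  have h00 := congrFun (congrFun hz 0) 0
  have h01 := congrFun (congrFun hz 0) 1
  have h10 := congrFun (congrFun hz 1) 0
  have h11 := congrFun (congrFun hz 1) 1
  simp only [Matrix.mul_apply, Fin.sum_univ_two, Matrix.add_apply, Matrix.one_apply_eq] at h00 h01 h10 h11
  rw [Matrix.one_apply_ne (by decide)] at h01 h10
  rcases tq2_zero_or_one hF (z 0 0) with a | a <;> rcases tq2_zero_or_one hF (z 0 1) with b | b <;>
  rcases tq2_zero_or_one hF (z 1 0) with c | c <;> rcases tq2_zero_or_one hF (z 1 1) with d | d <;>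
  simp only [a, b, c, d, h2, mul_zero, zero_mul, mul_one, add_zero, zero_add, zero_ne_one,
    one_ne_zero] at h00 h01 h10 h11
  · left
    ext i j
    fin_cases i <;> fin_cases j <;> simp [a, b, c, d]
  · right
    ext i j
    fin_cases i <;> fin_cases j <;> simp [a, b, c, d, h2]

/-- the subalgebra `F + F W` for `W² = W + 1`. -/
def tq2K (W : Matrix (Fin n) (Fin n) F) (hW : W * W = W + 1) :
    Subalgebra F (Matrix (Fin n) (Fin n) F) where
  carrier := {M | ∃ α β : F, M = α • (1 : Matrix (Fin n) (Fin n) F) + β • W}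
  mul_mem' := by
    rintro _ _ ⟨α, β, rfl⟩ ⟨α', β', rfl⟩
    refine ⟨α * α' + β * β', α * β' + β * α' + β * β', ?_⟩
    simp only [add_mul, mul_add, smul_mul_assoc, mul_smul_comm, one_mul, mul_one, hW, smul_add,
      smul_smul]
    module
  add_mem' := by
    rintro _ _ ⟨α, β, rfl⟩ ⟨α', β', rfl⟩
    exact ⟨α + α', β + β', by module⟩
  algebraMap_mem' := fun c => ⟨c, 0, by simp [Algebra.algebraMap_eq_smul_one]⟩

theorem tq2_mem_K (W : Matrix (Fin n) (Fin n) F) (hW : W * W = W + 1)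
    (M : Matrix (Fin n) (Fin n) F) :
    M ∈ tq2K W hW ↔ ∃ α β : F, M = α • (1 : Matrix (Fin n) (Fin n) F) + β • W := Iff.rfl

theorem tensor_two [Fintype F] (hn : 0 < n) (hq : Fintype.card F = 2) {b : ℕ} (e : Fin n ≃ Fin 2 × Fin b) (P : GL (Fin n) F) :
    ∃ K : Subalgebra F (Matrix (Fin n) (Fin n) F), IsFieldSubalgebra 2 K ∧
      tensorProductSubgroup 2 b e P ≤ subalgebraNormalizer K := by
  have h2 := tq2_two hq
  haveI : Nonempty (Fin n) := ⟨⟨0, hn⟩⟩
  obtain ⟨ω, hω⟩ : ∃ ω : Matrix (Fin 2) (Fin 2) F, ω = !![0, 1; 1, 1] := ⟨_, rfl⟩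
  have hωω : ω * ω = ω + 1 := by
    ext i j
    fin_cases i <;> fin_cases j <;> simp [hω, Matrix.mul_apply, Fin.sum_univ_two]
  obtain ⟨W, hWdef⟩ : ∃ W, W = kr e P ω := ⟨_, rfl⟩
  have hW : W * W = W + 1 := by rw [hWdef, ← tq2_kr_mul, hωω, tq2_kr_add, tq2_kr_one]
  have hWW : W + W = 0 := by
    have : W + W = ((1 : F) + 1) • W := by rw [add_smul, one_smul]
    rw [this, h2, zero_smul]
  have hinj : ∀ c : F, c • (1 : Matrix (Fin n) (Fin n) F) = 0 → c = 0 := by
    intro c hc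
    rcases smul_eq_zero.1 hc with h | h
    · exact h
    · exact absurd h one_ne_zero
  refine ⟨tq2K W hW, ⟨?_, ?_, ?_⟩, ?_⟩
  · rintro _ ⟨α, β, rfl⟩ _ ⟨α', β', rfl⟩
    simp only [add_mul, mul_add, smul_mul_assoc, mul_smul_comm, one_mul, mul_one, hW, smul_add,
      smul_smul]
    module
  · rintro _ ⟨α, β, rfl⟩ hne
    rcases tq2_zero_or_one hq α with rfl | rfl <;> rcases tq2_zero_or_one hq β with rfl | rfl
    · exact absurd (by simp) hne
    · refine ⟨1 + W, ⟨1, 1, by simp⟩, ?_⟩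
      rw [zero_smul, zero_add, one_smul, mul_add, mul_one, hW, ← add_assoc, hWW, zero_add]
    · exact ⟨1, ⟨1, 0, by simp⟩, by simp⟩
    · refine ⟨W, ⟨0, 1, by simp⟩, ?_⟩
      rw [one_smul, one_smul, add_mul, one_mul, hW, ← add_assoc, hWW, zero_add]
  · have hli : LinearIndependent F ![(1 : Matrix (Fin n) (Fin n) F), W] := by
      rw [LinearIndependent.pair_iff]
      intro s t hst
      rcases tq2_zero_or_one hq t with rfl | rfl
      · rw [zero_smul, add_zero] at hst
        exact ⟨hinj s hst, rfl⟩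
      · exfalso
        rw [one_smul] at hst
        have hWs : W = (-s) • (1 : Matrix (Fin n) (Fin n) F) := by
          rw [neg_smul]
          exact eq_neg_of_add_eq_zero_right hst
        have h3 : ((-s) * (-s) - (-s + 1)) • (1 : Matrix (Fin n) (Fin n) F) = 0 := by
          have h4 := hW
          rw [hWs, smul_mul_smul_comm, one_mul] at h4
          rw [sub_smul, add_smul, one_smul, h4, sub_self]
        have h5 := hinj _ h3
        rcases tq2_zero_or_one hq s with rfl | rfl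
        · simp at h5
        · have : (1 : F) = 0 := by linear_combination h5
          exact one_ne_zero this
    have hspan : Subalgebra.toSubmodule (tq2K W hW) =
        Submodule.span F (Set.range ![(1 : Matrix (Fin n) (Fin n) F), W]) := by
      ext M
      simp only [Matrix.range_cons, Matrix.range_empty, Set.union_empty, Set.singleton_union]
      rw [Submodule.mem_span_pair]
      constructor
      · rintro ⟨α, β, rfl⟩
        exact ⟨α, β, rfl⟩
      · rintro ⟨α, β, rfl⟩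
        exact ⟨α, β, rfl⟩
    rw [← Subalgebra.finrank_toSubmodule, hspan, finrank_span_eq_card hli]
    simp
  · have key : ∀ g ∈ tensorProductSubgroup 2 b e P, ∀ k ∈ tq2K W hW,
        (g : Matrix (Fin n) (Fin n) F) * k * ((g⁻¹ : GL (Fin n) F) : Matrix (Fin n) (Fin n) F) ∈
          tq2K W hW := by
      intro g hg
      obtain ⟨x, hx⟩ := tq2_conj_kr e P g hg
      rintro _ ⟨α, β, rfl⟩
      have hz : ((x : Matrix (Fin 2) (Fin 2) F) * ω * ((x⁻¹ : GL (Fin 2) F) : Matrix (Fin 2) (Fin 2) F)) *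
          ((x : Matrix (Fin 2) (Fin 2) F) * ω * ((x⁻¹ : GL (Fin 2) F) : Matrix (Fin 2) (Fin 2) F)) =
          ((x : Matrix (Fin 2) (Fin 2) F) * ω * ((x⁻¹ : GL (Fin 2) F) : Matrix (Fin 2) (Fin 2) F)) + 1 := by
        rw [tq2_conj_mul, hωω, Matrix.mul_add, Matrix.add_mul, Matrix.mul_one, tq2_mul_inv]
      have h1 : (g : Matrix (Fin n) (Fin n) F) * (α • (1 : Matrix (Fin n) (Fin n) F) + β • W) *
          ((g⁻¹ : GL (Fin n) F) : Matrix (Fin n) (Fin n) F) =
          α • (1 : Matrix (Fin n) (Fin n) F) + β • kr e P ((x : Matrix (Fin 2) (Fin 2) F) * ω *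
            ((x⁻¹ : GL (Fin 2) F) : Matrix (Fin 2) (Fin 2) F)) := by
        rw [← hx ω, ← hWdef, Matrix.mul_add, Matrix.add_mul, Matrix.mul_smul, Matrix.mul_smul,
          Matrix.smul_mul, Matrix.smul_mul, Matrix.mul_one, tq2_mul_inv]
      rw [h1]
      rcases tq2_class hq _ hz with h | h
      · rw [h, ← hω, ← hWdef]
        exact ⟨α, β, rfl⟩
      · rw [h, ← hω, tq2_kr_add, tq2_kr_one, ← hWdef]
        exact ⟨α + β, β, by module⟩
    intro g hg k
    constructor
    · exact key g hg k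
    · intro h
      have h3 := key g⁻¹ (inv_mem hg) _ h
      rw [inv_inv] at h3
      have h4 : ((g⁻¹ : GL (Fin n) F) : Matrix (Fin n) (Fin n) F) *
          ((g : Matrix (Fin n) (Fin n) F) * k * ((g⁻¹ : GL (Fin n) F) : Matrix (Fin n) (Fin n) F)) *
          (g : Matrix (Fin n) (Fin n) F) = k := by
        calc _ = (((g⁻¹ : GL (Fin n) F) : Matrix (Fin n) (Fin n) F) * (g : Matrix (Fin n) (Fin n) F)) * k *
            (((g⁻¹ : GL (Fin n) F) : Matrix (Fin n) (Fin n) F) * (g : Matrix (Fin n) (Fin n) F)) := by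
              simp only [Matrix.mul_assoc]
          _ = k := by rw [tq2_inv_mul, Matrix.one_mul, Matrix.mul_one]
      rwa [h4] at h3

end Cfsg.Agent.Lib.Helper5.AschC
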