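import Cfsg.Agent.Lib.Helper5.AschC.Defs

/-! Ladder ASCHC (S5799 + S5838 + S5862), rung SWAP. -/

set_option autoImplicit false

namespace Cfsg.Agent.Lib.Helper5.AschC

open Cfsg Cfsg.Geo Cfsg.Agent.Lib.Helper77.Asch
open scoped MatrixGroups Matrix Kronecker

variable {n : ℕ} {F : Type*} [Field F]

theorem swap_glReindex_apply {κ ι : Type} [Fintype κ] [DecidableEq κ] [Fintype ι] [DecidableEq ι]
    (e : κ ≃ ι) (k : GL κ F) (i j : ι) :
    ((glReindex e k : GL ι F) : Matrix ι ι F) i j = (k : Matrix κ κ F) (e.symm i) (e.symm j) := rfl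

/-- SWAP.  reindexing x ⊗ₖ y along `Equiv.prodComm` gives y ⊗ₖ x (entrywise, mul_comm). -/
theorem tensor_swap {a b : ℕ} (e : Fin n ≃ Fin a × Fin b) (P : GL (Fin n) F) :
    tensorProductSubgroup a b e P ≤ tensorProductSubgroup b a (e.trans (Equiv.prodComm _ _)) P := by
  rintro _ ⟨_, ⟨k, ⟨x, y, hk⟩, rfl⟩, rfl⟩
  refine ⟨_, ⟨glReindex (Equiv.prodComm (Fin a) (Fin b)) k, ⟨y, x, ?_⟩, rfl⟩, ?_⟩
  · ext ⟨i1, i2⟩ ⟨j1, j2⟩
    rw [swap_glReindex_apply, hk]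
    simp [Matrix.kroneckerMap_apply, mul_comm]
  · congr 1

end Cfsg.Agent.Lib.Helper5.AschC
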