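import Cfsg.Agent.Lib.Helper5.AschC.Defs
import Cfsg.Agent.Lib.Helper77.Asch.FORMU

set_option autoImplicit false

namespace Cfsg.Agent.Lib.Helper5.AschC

open Cfsg Cfsg.Geo Cfsg.Agent.Lib.Helper77.Asch
open scoped MatrixGroups Matrix Kronecker

variable {n : ℕ} {F : Type*} [Field F]

/-- FORMS (small).  `Helper77.Asch.formu_key` with σ = RingEquiv.refl F. -/
theorem normalizer_le_sympSim (P : Subgroup (GL (Fin n) F))
    (hP : ActsAbsolutelyIrreducibly (matrixSet P)) (f : (Fin n → F) → (Fin n → F) → F)
    (hf : IsSymplecticForm f) (hfix : FixesForm (matrixSet P) f) :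
    subgroupNormalizer P ≤ similarityGroup f :=
  formu_key P hP (RingEquiv.refl F) f hf.bilinear.add_left hf.bilinear.smul_left
    hf.bilinear.add_right hf.bilinear.smul_right hf.nondegenerate hfix

/-- FORMS (small). -/
theorem polar_symplectic (h2 : (2 : F) = 0) (Q : (Fin n → F) → F) (hQ : IsNondegenerateQuadraticForm Q) :
    IsSymplecticForm (QuadraticMap.polar Q) := by
  have hneg : ∀ a : F, -a = a := by
    intro a
    have : a + a = 0 := by rw [← two_mul, h2, zero_mul]
    exact neg_eq_of_add_eq_zero_left this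
  refine ⟨hQ.polar_bilinear, fun v w => ?_, fun v => ?_, hQ.nondegenerate⟩
  · rw [hneg, QuadraticMap.polar_comm]
  · have h3 : v + v = (2 : F) • v := (two_smul F v).symm
    rw [QuadraticMap.polar, h3, hQ.smul, h2]
    have : Q v + Q v = 0 := by rw [← two_mul, h2, zero_mul]
    linear_combination -this

/-- FORMS (trivial). -/
theorem polar_fixes (S : Set (Matrix (Fin n) (Fin n) F)) (Q : (Fin n → F) → F) (h : FixesQuadForm S Q) :
    FixesForm S (QuadraticMap.polar Q) := by
  intro s hs u v
  rw [QuadraticMap.polar, QuadraticMap.polar, ← Matrix.mulVec_add, h s hs, h s hs, h s hs]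

end Cfsg.Agent.Lib.Helper5.AschC
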