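import Cfsg.Agent.Lib.Helper5.AschC.Defs
import Cfsg.Agent.Lib.Helper77.Asch.BURN

/-! Ladder ASCHC (S5799 + S5838 + S5862), rung IND. -/

set_option autoImplicit false

namespace Cfsg.Agent.Lib.Helper5.AschC

open Cfsg Cfsg.Geo Cfsg.Agent.Lib.Helper77.Asch
open scoped MatrixGroups Matrix Kronecker commutatorElement

variable {n : ℕ} {F : Type*} [Field F]

theorem ind_central (z : GL (Fin n) F) (hz : z ∈ scalars (Fin n) F) (g : GL (Fin n) F) :
    g * z = z * g := by
  obtain ⟨c, hc⟩ := (mem_scalars_iff z).1 hz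
  apply Units.ext
  simp [hc]

/-- the top left entry. -/
def indEps (hn : 0 < n) (g : GL (Fin n) F) : F := (g : Matrix (Fin n) (Fin n) F) ⟨0, hn⟩ ⟨0, hn⟩

theorem ind_eps_spec (hn : 0 < n) (z : GL (Fin n) F) (hz : z ∈ scalars (Fin n) F) :
    (z : Matrix (Fin n) (Fin n) F) = indEps hn z • (1 : Matrix (Fin n) (Fin n) F) := by
  obtain ⟨c, hc⟩ := (mem_scalars_iff z).1 hz
  unfold indEps
  rw [hc]
  simp

theorem ind_eps_mul (hn : 0 < n) (z z' : GL (Fin n) F) (hz : z ∈ scalars (Fin n) F)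
    (hz' : z' ∈ scalars (Fin n) F) : indEps hn (z * z') = indEps hn z * indEps hn z' := by
  have h : ((z * z' : GL (Fin n) F) : Matrix (Fin n) (Fin n) F)
      = (indEps hn z * indEps hn z') • (1 : Matrix (Fin n) (Fin n) F) := by
    rw [Units.val_mul, ind_eps_spec hn z hz, ind_eps_spec hn z' hz']
    simp [smul_smul, indEps, mul_comm]
  have h2 := congrFun (congrFun h ⟨0, hn⟩) ⟨0, hn⟩
  simpa [indEps] using h2

theorem ind_comm_mem (N : Subgroup (GL (Fin n) F)) (hab : ⁅N, N⁆ ≤ scalars (Fin n) F) (x y : N) :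
    ((y : GL (Fin n) F) * x * (y : GL (Fin n) F)⁻¹ * (x : GL (Fin n) F)⁻¹) ∈ scalars (Fin n) F :=
  hab (Subgroup.commutator_mem_commutator y.2 x.2)

/-- the character `y ↦ [y, x]`. -/
def indChi (hn : 0 < n) (N : Subgroup (GL (Fin n) F)) (hab : ⁅N, N⁆ ≤ scalars (Fin n) F) (x : N) :
    N →* F where
  toFun y := indEps hn ((y : GL (Fin n) F) * x * (y : GL (Fin n) F)⁻¹ * (x : GL (Fin n) F)⁻¹)
  map_one' := by simp [indEps]
  map_mul' y y' := by
    have hz := ind_comm_mem N hab x y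
    have hz' := ind_comm_mem N hab x y'
    rw [← ind_eps_mul hn _ _ hz hz']
    congr 1
    have hc := ind_central _ hz' (y : GL (Fin n) F)
    calc (((y * y' : N) : GL (Fin n) F)) * x * ((y * y' : N) : GL (Fin n) F)⁻¹ * (x : GL (Fin n) F)⁻¹
        = ((y : GL (Fin n) F) * ((y' : GL (Fin n) F) * x * (y' : GL (Fin n) F)⁻¹ * (x : GL (Fin n) F)⁻¹))
            * (x * (y : GL (Fin n) F)⁻¹ * (x : GL (Fin n) F)⁻¹) := by
          rw [Subgroup.coe_mul]; group
      _ = (((y' : GL (Fin n) F) * x * (y' : GL (Fin n) F)⁻¹ * (x : GL (Fin n) F)⁻¹) * (y : GL (Fin n) F))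
            * (x * (y : GL (Fin n) F)⁻¹ * (x : GL (Fin n) F)⁻¹) := by rw [hc]
      _ = ((y' : GL (Fin n) F) * x * (y' : GL (Fin n) F)⁻¹ * (x : GL (Fin n) F)⁻¹) *
            ((y : GL (Fin n) F) * x * (y : GL (Fin n) F)⁻¹ * (x : GL (Fin n) F)⁻¹) := by
          simp only [mul_assoc]
      _ = _ := (ind_central _ hz' _).symm

theorem ind_conj (hn : 0 < n) (N : Subgroup (GL (Fin n) F)) (hab : ⁅N, N⁆ ≤ scalars (Fin n) F)
    (x y : N) :
    ((y : GL (Fin n) F) : Matrix (Fin n) (Fin n) F) * ((x : GL (Fin n) F) : Matrix (Fin n) (Fin n) F) *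
        (((y : GL (Fin n) F)⁻¹ : GL (Fin n) F) : Matrix (Fin n) (Fin n) F)
      = indChi hn N hab x y • ((x : GL (Fin n) F) : Matrix (Fin n) (Fin n) F) := by
  have hz := ind_comm_mem N hab x y
  have h := ind_eps_spec hn _ hz
  have e : (y : GL (Fin n) F) * x * (y : GL (Fin n) F)⁻¹
      = ((y : GL (Fin n) F) * x * (y : GL (Fin n) F)⁻¹ * (x : GL (Fin n) F)⁻¹) * x := by group
  have e2 := congrArg (fun g : GL (Fin n) F => (g : Matrix (Fin n) (Fin n) F)) e
  rw [Units.val_mul _ (x : GL (Fin n) F), h, smul_mul_assoc, one_mul] at e2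
  rw [← Units.val_mul, ← Units.val_mul, e2]
  rfl

theorem ind_inj (hn : 0 < n) (N : Subgroup (GL (Fin n) F)) (hab : ⁅N, N⁆ ≤ scalars (Fin n) F)
    (hN : ActsAbsolutelyIrreducibly (matrixSet N)) (x x' : N)
    (h : indChi hn N hab x = indChi hn N hab x') :
    (x : GL (Fin n) F)⁻¹ * x' ∈ scalars (Fin n) F := by
  haveI : Nonempty (Fin n) := ⟨⟨0, hn⟩⟩
  have hcomm : ∀ y : N, ((x : GL (Fin n) F)⁻¹ * (x' : GL (Fin n) F)) * (y : GL (Fin n) F)
      = (y : GL (Fin n) F) * ((x : GL (Fin n) F)⁻¹ * (x' : GL (Fin n) F)) := by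
    intro y
    have hz := ind_comm_mem N hab x y
    have hz' := ind_comm_mem N hab x' y
    have he : indEps hn ((y : GL (Fin n) F) * (x : GL (Fin n) F) * (y : GL (Fin n) F)⁻¹ * (x : GL (Fin n) F)⁻¹)
        = indEps hn ((y : GL (Fin n) F) * (x' : GL (Fin n) F) * (y : GL (Fin n) F)⁻¹ * (x' : GL (Fin n) F)⁻¹) :=
      congrArg (fun f : N →* F => f y) h
    have hzz : (y : GL (Fin n) F) * x * (y : GL (Fin n) F)⁻¹ * (x : GL (Fin n) F)⁻¹
        = (y : GL (Fin n) F) * x' * (y : GL (Fin n) F)⁻¹ * (x' : GL (Fin n) F)⁻¹ := by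
      apply Units.ext
      rw [ind_eps_spec hn _ hz, ind_eps_spec hn _ hz', he]
    have h1 : (y : GL (Fin n) F) * x' * (y : GL (Fin n) F)⁻¹
        = ((y : GL (Fin n) F) * x' * (y : GL (Fin n) F)⁻¹ * (x' : GL (Fin n) F)⁻¹) * x' := by group
    rw [← hzz] at h1
    have h3 : (y : GL (Fin n) F) * ((x : GL (Fin n) F)⁻¹ * x') * (y : GL (Fin n) F)⁻¹
        = (y * (x : GL (Fin n) F)⁻¹ * (y : GL (Fin n) F)⁻¹) * ((y : GL (Fin n) F) * x' * (y : GL (Fin n) F)⁻¹) := by
      group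
    rw [h1] at h3
    have h4 : (y * (x : GL (Fin n) F)⁻¹ * (y : GL (Fin n) F)⁻¹) *
        ((y : GL (Fin n) F) * x * (y : GL (Fin n) F)⁻¹ * (x : GL (Fin n) F)⁻¹ * x')
        = (x : GL (Fin n) F)⁻¹ * x' := by group
    rw [h4] at h3
    exact (mul_inv_eq_iff_eq_mul.1 h3).symm
  obtain ⟨c, hc⟩ := hN.2 (((x : GL (Fin n) F)⁻¹ * x' : GL (Fin n) F) : Matrix (Fin n) (Fin n) F) (by
    rintro _ ⟨y, hy, rfl⟩
    have := hcomm ⟨y, hy⟩
    rw [← Units.val_mul, ← Units.val_mul]
    exact congrArg _ this)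
  have hc0 : c ≠ 0 := by
    rintro rfl
    rw [zero_smul] at hc
    exact Units.ne_zero _ hc
  exact (mem_scalars_iff _).2 ⟨Units.mk0 c hc0, hc⟩

/-- IND. -/
theorem relIndex_eq_sq [Finite F] (hn : 0 < n) (N : Subgroup (GL (Fin n) F)) (hZ : scalars (Fin n) F ≤ N)
    (hab : ⁅N, N⁆ ≤ scalars (Fin n) F) (hN : ActsAbsolutelyIrreducibly (matrixSet N)) :
    (scalars (Fin n) F).relIndex N = n ^ 2 := by
  classical
  haveI : Nonempty (Fin n) := ⟨⟨0, hn⟩⟩
  haveI : Fintype F := Fintype.ofFinite F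
  haveI : Finite (N ⧸ (scalars (Fin n) F).subgroupOf N) := inferInstance
  haveI : Fintype (N ⧸ (scalars (Fin n) F).subgroupOf N) := Fintype.ofFinite _
  let t : (N ⧸ (scalars (Fin n) F).subgroupOf N) → Matrix (Fin n) (Fin n) F :=
    fun q => (((q.out : N) : GL (Fin n) F) : Matrix (Fin n) (Fin n) F)
  have hχinj : Function.Injective
      (fun q : (N ⧸ (scalars (Fin n) F).subgroupOf N) => indChi hn N hab q.out) := by
    intro q q' h
    have h2 := ind_inj hn N hab hN q.out q'.out h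
    rw [← QuotientGroup.out_eq' q, ← QuotientGroup.out_eq' q']
    exact QuotientGroup.eq.2 (by rw [Subgroup.mem_subgroupOf]; simpa using h2)
  have hli0 : LinearIndependent F
      (fun q : (N ⧸ (scalars (Fin n) F).subgroupOf N) => (indChi hn N hab q.out : N → F)) :=
    (linearIndependent_monoidHom N F).comp _ hχinj
  have hli : LinearIndependent F t := by
    rw [Fintype.linearIndependent_iff]
    intro c hc q
    have key : ∀ i j, ∀ q, c q * t q i j = 0 := by
      intro i j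
      rw [Fintype.linearIndependent_iff] at hli0
      apply hli0 (fun q => c q * t q i j)
      funext y
      have h1 : ((y : GL (Fin n) F) : Matrix (Fin n) (Fin n) F) * (∑ q, c q • t q) *
          (((y : GL (Fin n) F)⁻¹ : GL (Fin n) F) : Matrix (Fin n) (Fin n) F) = 0 := by
        rw [hc]; simp
      rw [Finset.mul_sum, Finset.sum_mul] at h1
      have h3 : ∀ q, ((y : GL (Fin n) F) : Matrix (Fin n) (Fin n) F) * (c q • t q) *
          (((y : GL (Fin n) F)⁻¹ : GL (Fin n) F) : Matrix (Fin n) (Fin n) F)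
          = (c q * indChi hn N hab q.out y) • t q := by
        intro q
        rw [mul_smul_comm, smul_mul_assoc, ind_conj hn N hab q.out y, smul_smul]
      rw [Finset.sum_congr rfl (fun q _ => h3 q)] at h1
      have h2 := congrFun (congrFun h1 i) j
      rw [Matrix.sum_apply] at h2
      rw [Finset.sum_apply]
      simp only [Matrix.smul_apply, smul_eq_mul, Matrix.zero_apply, Pi.smul_apply, Pi.zero_apply] at h2 ⊢
      rw [← h2]
      exact Finset.sum_congr rfl (fun q _ => by ring)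
    obtain ⟨i, j, hij⟩ : ∃ i j, t q i j ≠ 0 := by
      by_contra hcon
      push Not at hcon
      have h0 : t q = 0 := by ext i j; exact hcon i j
      exact Units.ne_zero _ h0
    exact (mul_eq_zero.1 (key i j q)).resolve_right hij
  have hsp : ⊤ ≤ Submodule.span F (Set.range t) := by
    rw [← span_eq_top hn N hN]
    apply Submodule.span_le.2
    rintro _ ⟨x, hx, rfl⟩
    obtain ⟨h, hh⟩ := QuotientGroup.mk_out_eq_mul ((scalars (Fin n) F).subgroupOf N) (⟨x, hx⟩ : N)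
    have hh2 : x = (((QuotientGroup.mk (⟨x, hx⟩ : N) : N ⧸ (scalars (Fin n) F).subgroupOf N).out : N) : GL (Fin n) F)
        * (((h : N) : GL (Fin n) F))⁻¹ := by
      rw [hh]; simp
    have hz : (((h : N) : GL (Fin n) F))⁻¹ ∈ scalars (Fin n) F :=
      (scalars (Fin n) F).inv_mem (Subgroup.mem_subgroupOf.1 h.2)
    obtain ⟨c, hc⟩ := (mem_scalars_iff _).1 hz
    have hx2 : (x : Matrix (Fin n) (Fin n) F)
        = (c : F) • t (QuotientGroup.mk (⟨x, hx⟩ : N)) := by
      conv_lhs => rw [hh2]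
      rw [Units.val_mul, hc, mul_smul_comm, mul_one]
    show (x : Matrix (Fin n) (Fin n) F) ∈ _
    rw [hx2]
    exact Submodule.smul_mem _ _ (Submodule.subset_span ⟨_, rfl⟩)
  have hcard := Module.finrank_eq_card_basis (Module.Basis.mk hli hsp)
  rw [Module.finrank_matrix] at hcard
  simp only [Fintype.card_fin, Module.finrank_self, mul_one] at hcard
  show Nat.card (N ⧸ (scalars (Fin n) F).subgroupOf N) = n ^ 2
  rw [Nat.card_eq_fintype_card, ← hcard, sq]

end Cfsg.Agent.Lib.Helper5.AschC
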