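import Cfsg.Agent.Lib.Helper5.AschC.Defs

/-! Ladder ASCHC (S5799 + S5838 + S5862), rung DENS. -/

set_option autoImplicit false
set_option linter.style.haveILetI false

namespace Cfsg.Agent.Lib.Helper5.AschC

open Cfsg Cfsg.Geo Cfsg.Agent.Lib.Helper77.Asch
open scoped MatrixGroups Matrix Kronecker

variable {n : ℕ} {F : Type*} [Field F]

/-- restriction of a subalgebra of the matrix algebra to an invariant subspace. -/
noncomputable def densRho (A : Subalgebra F (Matrix (Fin n) (Fin n) F)) (U : Submodule F (Fin n → F))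
    (hinv : ∀ a ∈ A, ∀ u ∈ U, a *ᵥ u ∈ U) : A →ₐ[F] Module.End F U where
  toFun a := (Matrix.toLin' (a : Matrix (Fin n) (Fin n) F)).restrict
    (fun u hu => by rw [Matrix.toLin'_apply]; exact hinv a a.2 u hu)
  map_one' := by
    ext u
    simp
  map_mul' a b := by
    ext u
    simp [LinearMap.restrict_apply]
  map_zero' := by
    ext u
    simp
  map_add' a b := by
    ext u
    simp [LinearMap.restrict_apply]
  commutes' c := by
    ext u
    simp [LinearMap.restrict_apply, Algebra.algebraMap_eq_smul_one]

theorem densRho_apply (A : Subalgebra F (Matrix (Fin n) (Fin n) F)) (U : Submodule F (Fin n → F))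
    (hinv : ∀ a ∈ A, ∀ u ∈ U, a *ᵥ u ∈ U) (a : A) (u : U) :
    ((densRho A U hinv a u : U) : Fin n → F) = (a : Matrix (Fin n) (Fin n) F) *ᵥ (u : Fin n → F) := by
  simp [densRho, LinearMap.restrict_apply]

/-- abstract density: a subalgebra of `End_F U` acting irreducibly whose centre is scalar is
everything (finite field). -/
theorem dens_top [Finite F] {U : Type*} [AddCommGroup U] [Module F U] [Module.Finite F U]
    (R : Subalgebra F (Module.End F U)) [IsSimpleModule R U]
    (hcen : ∀ z ∈ R, (∀ r ∈ R, z * r = r * z) → ∃ c : F, ∀ v, z v = c • v) : R = ⊤ := by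
  classical
  haveI : Finite U := Module.finite_of_finite F
  haveI : Finite (Module.End R U) :=
    Finite.of_injective (fun f => (f : U → U)) DFunLike.coe_injective
  letI : DivisionRing (Module.End R U) := Module.End.instDivisionRing
  have hcommE : ∀ ψ χ : Module.End R U, ψ * χ = χ * ψ := fun ψ χ =>
    (Finite.isDomain_to_isField (Module.End R U)).mul_comm ψ χ
  haveI := Fintype.ofFinite U
  have hsc : ∀ ψ : Module.End R U, ∃ c : F, ∀ v, ψ v = c • v := by
    intro ψ
    let f : Module.End (Module.End R U) U :=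
      { toFun := ψ
        map_add' := ψ.map_add
        map_smul' := fun χ v => by
          change ψ (χ v) = χ (ψ v)
          have := hcommE ψ χ
          exact congrArg (fun g => g v) this }
    obtain ⟨r, hr⟩ := jacobson_density (R := R) (M := U) f Finset.univ
    have h1 : ∀ v, ψ v = r.1 v := fun v => hr v (Finset.mem_univ v)
    obtain ⟨c, hc⟩ := hcen r.1 r.2 (by
      intro s hs
      ext v
      change r.1 (s v) = s (r.1 v)
      rw [← h1, ← h1]
      exact ψ.map_smul (⟨s, hs⟩ : R) v)
    exact ⟨c, fun v => by rw [h1, hc]⟩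
  rw [eq_top_iff]
  intro g _
  let f : Module.End (Module.End R U) U :=
    { toFun := g
      map_add' := g.map_add
      map_smul' := fun ψ v => by
        obtain ⟨c, hc⟩ := hsc ψ
        change g (ψ v) = ψ (g v)
        rw [hc, hc, g.map_smul] }
  obtain ⟨r, hr⟩ := jacobson_density (R := R) (M := U) f Finset.univ
  have : g = r.1 := LinearMap.ext fun v => hr v (Finset.mem_univ v)
  rw [this]
  exact r.2

/-- abstract density for a representation. -/
theorem dens_surj [Finite F] {U : Type*} [AddCommGroup U] [Module F U] [Module.Finite F U]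
    [Nontrivial U] {A : Type*} [Ring A] [Algebra F A] (ρ : A →ₐ[F] Module.End F U)
    (hirr : ∀ W : Submodule F U, (∀ a : A, ∀ w ∈ W, ρ a w ∈ W) → W = ⊥ ∨ W = ⊤)
    (hcen : ∀ z : A, (∀ a : A, ρ z * ρ a = ρ a * ρ z) → ∃ c : F, ∀ v, ρ z v = c • v) :
    Function.Surjective ρ := by
  classical
  obtain ⟨R, hR⟩ : ∃ R : Subalgebra F (Module.End F U), R = ρ.range := ⟨_, rfl⟩
  have hmemR : ∀ a : A, ρ a ∈ R := fun a => by rw [hR]; exact ⟨a, rfl⟩
  haveI : IsSimpleOrder (Submodule R U) :=
    { eq_bot_or_eq_top := fun W => by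
        have h1 := hirr (W.restrictScalars F) (by
          intro a w hw
          exact W.smul_mem (⟨ρ a, hmemR _⟩ : R) hw)
        rcases h1 with h1 | h1
        · left
          exact (Submodule.restrictScalars_eq_bot_iff _ _ _).1 h1
        · right
          exact (Submodule.restrictScalars_eq_top_iff _ _ _).1 h1 }
  haveI : IsSimpleModule R U := {}
  have htop : R = ⊤ := by
    apply dens_top R
    intro z0 hz0 hz
    rw [hR] at hz0
    obtain ⟨z, rfl⟩ := hz0
    exact hcen z (fun a => hz (ρ a) (hmemR a))
  intro g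
  have : g ∈ R := by rw [htop]; trivial
  rw [hR] at this
  exact this

theorem dens [Finite F] (A : Subalgebra F (Matrix (Fin n) (Fin n) F)) (U : Submodule F (Fin n → F))
    (h : FaithIrr A U) (hc : Module.finrank F (cen A) = 1) :
    ∃ (a : ℕ) (φ : Matrix (Fin a) (Fin a) F →ₐ[F] Matrix (Fin n) (Fin n) F), 0 < a ∧ φ.range = A := by
  classical
  set ρ := densRho A U h.inv with hρ
  have hρa : ∀ (a : A) (u : U), ((ρ a u : U) : Fin n → F) =
      (a : Matrix (Fin n) (Fin n) F) *ᵥ (u : Fin n → F) := densRho_apply A U h.inv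
  have hinj : Function.Injective ρ := by
    rw [injective_iff_map_eq_zero]
    intro a ha
    apply Subtype.ext
    apply h.faith a a.2
    intro u hu
    have := hρa a ⟨u, hu⟩
    rw [ha] at this
    exact this.symm
  haveI : Nontrivial U := by
    rw [Submodule.nontrivial_iff_ne_bot]
    exact h.ne_bot
  have hsurj : Function.Surjective ρ := by
    apply dens_surj ρ
    · intro W hW
      have h1 := h.irr (W.map U.subtype) (Submodule.map_subtype_le _ _) (by
        rintro a ha _ ⟨w, hw, rfl⟩
        exact ⟨ρ ⟨a, ha⟩ w, hW ⟨a, ha⟩ w hw, hρa ⟨a, ha⟩ w⟩)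
      rcases h1 with h1 | h1
      · left
        exact (Submodule.map_injective_of_injective U.subtype_injective)
          (h1.trans (Submodule.map_bot _).symm)
      · right
        rw [eq_top_iff]
        intro w _
        have h2 : (w : Fin n → F) ∈ W.map U.subtype := by
          rw [h1]; exact w.2
        obtain ⟨w', hw', he⟩ := h2
        have : w' = w := Subtype.ext he
        exact this ▸ hw'
    · intro z hz
      have hzc : (z : Matrix (Fin n) (Fin n) F) ∈ cen A := by
        refine ⟨z.2, ?_⟩
        rw [SetLike.mem_coe, Subalgebra.mem_centralizer_iff]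
        intro a ha
        have h1 := hz ⟨a, ha⟩
        rw [← map_mul, ← map_mul] at h1
        have h2 := congrArg Subtype.val (hinj h1)
        exact h2.symm
      have hone : (1 : cen A) ≠ 0 := by
        intro h0
        haveI : Subsingleton (cen A) := subsingleton_of_zero_eq_one h0.symm
        rw [Module.finrank_zero_of_subsingleton] at hc
        omega
      obtain ⟨c, hcz⟩ := (finrank_eq_one_iff_of_nonzero' (1 : cen A) hone).1 hc ⟨z, hzc⟩
      refine ⟨c, fun v => ?_⟩
      apply Subtype.ext
      have h3 : (z : Matrix (Fin n) (Fin n) F) = c • 1 := by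
        have := congrArg Subtype.val hcz
        exact this.symm
      rw [hρa, h3]
      simp [Matrix.smul_mulVec]
  let ρ' : A ≃ₐ[F] Module.End F U := AlgEquiv.ofBijective ρ ⟨hinj, hsurj⟩
  let θ : A ≃ₐ[F] Matrix (Fin (Module.finrank F U)) (Fin (Module.finrank F U)) F :=
    ρ'.trans (LinearMap.toMatrixAlgEquiv (Module.finBasis F U))
  refine ⟨Module.finrank F U, A.val.comp θ.symm.toAlgHom, Module.finrank_pos, ?_⟩
  ext x
  constructor
  · rintro ⟨y, rfl⟩
    exact (θ.symm y).2
  · intro hx
    exact ⟨θ ⟨x, hx⟩, by simp⟩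

end Cfsg.Agent.Lib.Helper5.AschC
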