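import Cfsg.Agent.Lib.Helper5.AschC.Defs

/-! Ladder ASCHC (S5799 + S5838 + S5862), rung EXT. -/

set_option autoImplicit false

namespace Cfsg.Agent.Lib.Helper5.AschC

open Cfsg Cfsg.Geo Cfsg.Agent.Lib.Helper77.Asch
open scoped MatrixGroups Matrix Kronecker

variable {n : ℕ} {F : Type*} [Field F]

/-- EXT. -/
theorem le_scalars_of_range (hn : 0 < n) (φ : Matrix (Fin 1) (Fin 1) F →ₐ[F] Matrix (Fin n) (Fin n) F)
    (N : Subgroup (GL (Fin n) F)) (h : φ.range = spanAlg N) : N ≤ scalars (Fin n) F := by
  intro x hx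
  have : NeZero n := ⟨hn.ne'⟩
  have h1 : (x : Matrix (Fin n) (Fin n) F) ∈ φ.range := by
    rw [h]; exact Algebra.subset_adjoin ⟨x, hx, rfl⟩
  obtain ⟨y, hy⟩ := h1
  have hy1 : y = (y 0 0) • (1 : Matrix (Fin 1) (Fin 1) F) := by
    ext i j
    have hi : i = 0 := Subsingleton.elim _ _
    have hj : j = 0 := Subsingleton.elim _ _
    subst hi hj
    simp
  have h2 : (x : Matrix (Fin n) (Fin n) F) = (y 0 0) • (1 : Matrix (Fin n) (Fin n) F) := by
    have h3 : φ y = (y 0 0) • (1 : Matrix (Fin n) (Fin n) F) := by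
      conv_lhs => rw [hy1]
      rw [map_smul, map_one]
    rw [← h3]
    exact hy.symm
  have hc : y 0 0 ≠ 0 := by
    intro h0
    rw [h0, zero_smul] at h2
    exact x.ne_zero h2
  rw [mem_scalars_iff]
  exact ⟨Units.mk0 _ hc, h2⟩

theorem ext_absIrr_of_top (hn : 0 < n) (N : Subgroup (GL (Fin n) F)) (h : spanAlg N = ⊤) :
    ActsAbsolutelyIrreducibly (matrixSet N) := by
  constructor
  · intro W hW
    have hall : ∀ M : Matrix (Fin n) (Fin n) F, ∀ w ∈ W, M *ᵥ w ∈ W := by
      intro M
      have hM : M ∈ Algebra.adjoin F (matrixSet N) := by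
        have : M ∈ spanAlg N := by rw [h]; trivial
        exact this
      induction hM using Algebra.adjoin_induction with
      | mem s hs =>
        intro w hw
        exact hW s hs ⟨w, hw, by simp [Matrix.toLin'_apply]⟩
      | algebraMap c =>
        intro w hw
        rw [Algebra.algebraMap_eq_smul_one, Matrix.smul_mulVec, Matrix.one_mulVec]
        exact W.smul_mem c hw
      | add a b _ _ iha ihb =>
        intro w hw
        rw [Matrix.add_mulVec]
        exact W.add_mem (iha w hw) (ihb w hw)
      | mul a b _ _ iha ihb =>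
        intro w hw
        rw [← Matrix.mulVec_mulVec]
        exact iha _ (ihb w hw)
    by_cases hb : W = ⊥
    · exact Or.inl hb
    · right
      obtain ⟨w, hw, hw0⟩ := (Submodule.ne_bot_iff W).mp hb
      obtain ⟨i, hi⟩ : ∃ i, w i ≠ 0 := by
        by_contra hcon
        push Not at hcon
        exact hw0 (funext hcon)
      rw [eq_top_iff]
      intro v _
      have h1 := hall (Matrix.vecMulVec v (Pi.single i (w i)⁻¹)) w hw
      rw [Matrix.vecMulVec_mulVec] at h1
      have h2 : (Pi.single i (w i)⁻¹ : Fin n → F) ⬝ᵥ w = 1 := by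
        rw [single_dotProduct, inv_mul_cancel₀ hi]
      rw [h2] at h1
      simpa using h1
  · intro M hM
    have h1 : Algebra.adjoin F (matrixSet N) ≤ Subalgebra.centralizer F {M} := by
      apply Algebra.adjoin_le
      intro s hs
      rw [SetLike.mem_coe, Subalgebra.mem_centralizer_iff]
      intro g hg
      rw [Set.mem_singleton_iff] at hg
      rw [hg]
      exact hM s hs
    have h2 : M ∈ Subalgebra.center F (Matrix (Fin n) (Fin n) F) := by
      rw [Subalgebra.mem_center_iff]
      intro b
      have hb : b ∈ Algebra.adjoin F (matrixSet N) := by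
        have : b ∈ spanAlg N := by rw [h]; trivial
        exact this
      have h3 := h1 hb
      rw [Subalgebra.mem_centralizer_iff] at h3
      exact (h3 M rfl).symm
    rw [Algebra.IsCentral.center_eq_bot, Algebra.mem_bot] at h2
    obtain ⟨c, hc⟩ := h2
    exact ⟨c, by rw [← hc, Algebra.algebraMap_eq_smul_one]⟩

/-- EXT. -/
theorem absIrr_of_range (hn : 0 < n) (φ : Matrix (Fin n) (Fin n) F →ₐ[F] Matrix (Fin n) (Fin n) F)
    (N : Subgroup (GL (Fin n) F)) (h : φ.range = spanAlg N) : ActsAbsolutelyIrreducibly (matrixSet N) := by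
  have : NeZero n := ⟨hn.ne'⟩
  apply ext_absIrr_of_top hn
  rw [← h, AlgHom.range_eq_top]
  have hinj : Function.Injective φ := (φ : Matrix (Fin n) (Fin n) F →+* Matrix (Fin n) (Fin n) F).injective
  exact (LinearMap.injective_iff_surjective (f := φ.toLinearMap)).mp hinj

end Cfsg.Agent.Lib.Helper5.AschC
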