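import Cfsg.Agent.Lib.Helper5.AschC.Defs

/-! Ladder ASCHC (S5799 + S5838 + S5862), rung MINI. -/

set_option autoImplicit false

namespace Cfsg.Agent.Lib.Helper5.AschC

open Cfsg Cfsg.Geo Cfsg.Agent.Lib.Helper77.Asch
open scoped MatrixGroups Matrix Kronecker

variable {n : ℕ} {F : Type*} [Field F]

/-- MINI (small). -/
theorem exists_minIdl (hn : 0 < n) (A : Subalgebra F (Matrix (Fin n) (Fin n) F)) : ∃ I, IsMinIdl A I := by
  classical
  have : Nonempty (Fin n) := ⟨⟨0, hn⟩⟩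
  have hex : ∃ d, ∃ I : Submodule F (Matrix (Fin n) (Fin n) F),
      IsIdl A I ∧ I ≠ ⊥ ∧ Module.finrank F I = d := by
    refine ⟨_, Subalgebra.toSubmodule A, ⟨fun x hx => hx, fun a ha x hx => A.mul_mem ha hx,
      fun a ha x hx => A.mul_mem hx ha⟩, ?_, rfl⟩
    intro h
    have h1 : (1 : Matrix (Fin n) (Fin n) F) ∈ Subalgebra.toSubmodule A := A.one_mem
    rw [h] at h1
    exact one_ne_zero ((Submodule.mem_bot F).1 h1)
  obtain ⟨I, hI, hI0, hId⟩ := Nat.find_spec hex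
  refine ⟨I, hI, hI0, fun J hJ hJI => ?_⟩
  by_contra hcon
  push Not at hcon
  have hlt : Module.finrank F J < Module.finrank F I :=
    Submodule.finrank_lt_finrank_of_lt (lt_of_le_of_ne hJI hcon.2)
  exact Nat.find_min hex (hId ▸ hlt) ⟨J, hJ, hcon.1, rfl⟩

end Cfsg.Agent.Lib.Helper5.AschC
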