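import Cfsg.Agent.Lib.Helper5.AschC.Defs

set_option autoImplicit false

namespace Cfsg.Agent.Lib.Helper5.AschC

open Cfsg Cfsg.Geo Cfsg.Agent.Lib.Helper77.Asch
open scoped MatrixGroups Matrix Kronecker

variable {n : ℕ} {F : Type*} [Field F]

/-- the submonoid of the matrices of `N` -/
def nrmMon (N : Subgroup (GL (Fin n) F)) : Submonoid (Matrix (Fin n) (Fin n) F) where
  carrier := matrixSet N
  one_mem' := ⟨1, N.one_mem, rfl⟩
  mul_mem' := by
    rintro _ _ ⟨x, hx, rfl⟩ ⟨y, hy, rfl⟩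
    exact ⟨x * y, N.mul_mem hx hy, rfl⟩

/-- NRM (small). -/
theorem spanAlg_toSubmodule (N : Subgroup (GL (Fin n) F)) :
    Subalgebra.toSubmodule (spanAlg N) = Submodule.span F (matrixSet N) := by
  unfold spanAlg
  rw [Algebra.adjoin_eq_span]
  have h : (Submonoid.closure (matrixSet N) : Submonoid (Matrix (Fin n) (Fin n) F)) = nrmMon N :=
    Submonoid.closure_eq (nrmMon N)
  rw [h]
  rfl

/-- NRM (trivial). -/
theorem mem_spanAlg (N : Subgroup (GL (Fin n) F)) (x : GL (Fin n) F) (hx : x ∈ N) :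
    (x : Matrix (Fin n) (Fin n) F) ∈ spanAlg N :=
  Algebra.subset_adjoin ⟨x, hx, rfl⟩

theorem nrm_conj_mem (G N : Subgroup (GL (Fin n) F)) (hnorm : NormBy G N) (g : GL (Fin n) F)
    (hg : g ∈ G) (k : Matrix (Fin n) (Fin n) F) (hk : k ∈ spanAlg N) : conjA g k ∈ spanAlg N := by
  have h1 : (spanAlg N).map (conjA g) ≤ spanAlg N := by
    unfold spanAlg
    rw [AlgHom.map_adjoin]
    apply Algebra.adjoin_mono
    rintro _ ⟨_, ⟨x, hx, rfl⟩, rfl⟩
    exact ⟨g * x * g⁻¹, hnorm g hg x hx, by simp⟩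
  exact h1 ⟨k, hk, rfl⟩

theorem nrm_conj_inv (g : GL (Fin n) F) (k : Matrix (Fin n) (Fin n) F) :
    conjA g⁻¹ (conjA g k) = k := by
  simp only [conjA_apply, inv_inv]
  have h : ((g⁻¹ : GL (Fin n) F) : Matrix (Fin n) (Fin n) F) * (g : Matrix (Fin n) (Fin n) F) = 1 := by
    rw [← Units.val_mul, inv_mul_cancel, Units.val_one]
  calc ((g⁻¹ : GL (Fin n) F) : Matrix (Fin n) (Fin n) F) * ((g : Matrix (Fin n) (Fin n) F) * k *
        ((g⁻¹ : GL (Fin n) F) : Matrix (Fin n) (Fin n) F)) * (g : Matrix (Fin n) (Fin n) F)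
      = (((g⁻¹ : GL (Fin n) F) : Matrix (Fin n) (Fin n) F) * (g : Matrix (Fin n) (Fin n) F)) * k *
        (((g⁻¹ : GL (Fin n) F) : Matrix (Fin n) (Fin n) F) * (g : Matrix (Fin n) (Fin n) F)) := by
        simp only [mul_assoc]
    _ = k := by rw [h, one_mul, mul_one]

/-- NRM. -/
theorem spanAlg_norm (G N : Subgroup (GL (Fin n) F)) (hnorm : NormBy G N) :
    G ≤ subalgebraNormalizer (spanAlg N) := by
  intro g hg k
  constructor
  · intro hk
    exact nrm_conj_mem G N hnorm g hg k hk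
  · intro hk
    have := nrm_conj_mem G N hnorm g⁻¹ (G.inv_mem hg) _ hk
    rw [← conjA_apply, nrm_conj_inv] at this
    exact this

/-- NRM. -/
theorem cen_norm (A : Subalgebra F (Matrix (Fin n) (Fin n) F)) :
    subalgebraNormalizer A ≤ subalgebraNormalizer (cen A) := by
  have key : ∀ g ∈ subalgebraNormalizer A, ∀ k ∈ cen A, conjA g k ∈ cen A := by
    intro g hg k hk
    obtain ⟨hkA, hkc⟩ := hk
    refine ⟨(hg k).mp hkA, ?_⟩
    rw [SetLike.mem_coe, Subalgebra.mem_centralizer_iff] at hkc ⊢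
    intro a ha
    have ha' : conjA g⁻¹ a ∈ A := ((subalgebraNormalizer A).inv_mem hg a).mp ha
    have h1 := hkc _ ha'
    have h2 := congrArg (conjA g) h1
    rw [map_mul, map_mul] at h2
    have h3 : conjA g (conjA g⁻¹ a) = a := by
      have := nrm_conj_inv g⁻¹ a
      rwa [inv_inv] at this
    rw [h3] at h2
    exact h2
  intro g hg k
  constructor
  · intro hk
    exact key g hg k hk
  · intro hk
    have := key g⁻¹ ((subalgebraNormalizer A).inv_mem hg) _ hk
    rw [← conjA_apply, nrm_conj_inv] at this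
    exact this

end Cfsg.Agent.Lib.Helper5.AschC
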