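import Cfsg.Agent.Lib.Helper5.AschC.Defs

/-! Ladder ASCHC (S5799 + S5838 + S5862), rung PW. -/

set_option autoImplicit false

namespace Cfsg.Agent.Lib.Helper5.AschC

open Cfsg Cfsg.Geo Cfsg.Agent.Lib.Helper77.Asch
open scoped MatrixGroups Matrix Kronecker TensorProduct

variable {n : ℕ} {F : Type*} [Field F]

theorem pw_aux {a : ℕ} (ha : 0 < a) : ∀ (k : ℕ)
    (φ : Fin k → (Matrix (Fin a) (Fin a) F →ₐ[F] Matrix (Fin n) (Fin n) F))
    (_ : ∀ i j, i ≠ j → ∀ x y, φ i x * φ j y = φ j y * φ i x),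
    ∃ (ι : Type) (_ : Fintype ι) (_ : DecidableEq ι) (_ : Nonempty ι), Fintype.card ι = a ^ k ∧
      ∃ Φ : Matrix ι ι F →ₐ[F] Matrix (Fin n) (Fin n) F,
        Φ.range = Algebra.adjoin F (⋃ i, Set.range (φ i)) := by
  intro k
  induction k with
  | zero =>
    intro φ _
    refine ⟨Unit, inferInstance, inferInstance, inferInstance, by simp, ?_⟩
    refine ⟨(Algebra.ofId F (Matrix (Fin n) (Fin n) F)).comp
      (Matrix.uniqueAlgEquiv (m := Unit) (R := F) (A := F)).toAlgHom, ?_⟩
    have h1 : (⋃ i : Fin 0, Set.range (φ i)) = ∅ := by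
      ext x; simp
    rw [h1, Algebra.adjoin_empty, eq_bot_iff]
    rintro _ ⟨x, rfl⟩
    exact Algebra.mem_bot.mpr ⟨_, rfl⟩
  | succ k ih =>
    intro φ hcomm
    obtain ⟨ι, i1, i2, i3, hcard, Φ, hΦ⟩ := ih (fun i => φ i.castSucc) (fun i j hij x y =>
      hcomm _ _ (fun h => hij (Fin.castSucc_injective _ h)) x y)
    set ψ := φ (Fin.last k) with hψ
    have hc : ∀ x y, Commute (Φ x) (ψ y) := by
      intro x y
      have h1 : Φ x ∈ Algebra.adjoin F (⋃ i : Fin k, Set.range (φ i.castSucc)) := by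
        rw [← hΦ]; exact ⟨x, rfl⟩
      have h2 : Algebra.adjoin F (⋃ i : Fin k, Set.range (φ i.castSucc)) ≤
          Subalgebra.centralizer F (Set.range ψ) := by
        apply Algebra.adjoin_le
        intro z hz
        obtain ⟨i, x', rfl⟩ := Set.mem_iUnion.mp hz
        rw [SetLike.mem_coe, Subalgebra.mem_centralizer_iff]
        rintro _ ⟨y', rfl⟩
        exact hcomm _ _ (Fin.castSucc_lt_last i).ne' y' x'
      have h3 := (Subalgebra.mem_centralizer_iff F).mp (h2 h1) (ψ y) ⟨y, rfl⟩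
      exact h3.symm
    let L : Matrix ι ι F ⊗[F] Matrix (Fin a) (Fin a) F →ₐ[F] Matrix (Fin n) (Fin n) F :=
      Algebra.TensorProduct.lift Φ ψ hc
    let E : Matrix (Fin a × ι) (Fin a × ι) F ≃ₐ[F] Matrix ι ι F ⊗[F] Matrix (Fin a) (Fin a) F :=
      ((Matrix.compAlgEquiv (Fin a) ι F F).symm).trans (matrixEquivTensor (Fin a) F (Matrix ι ι F))
    haveI : Nonempty (Fin a) := ⟨⟨0, ha⟩⟩
    refine ⟨Fin a × ι, inferInstance, inferInstance, inferInstance, ?_, L.comp E.toAlgHom, ?_⟩
    · rw [Fintype.card_prod, Fintype.card_fin, hcard, pow_succ, mul_comm]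
    · have hsmall : Algebra.adjoin F (⋃ i : Fin k, Set.range (φ i.castSucc)) ≤
          Algebra.adjoin F (⋃ i, Set.range (φ i)) := by
        apply Algebra.adjoin_mono
        intro z hz
        obtain ⟨i, hi⟩ := Set.mem_iUnion.mp hz
        exact Set.mem_iUnion.mpr ⟨i.castSucc, hi⟩
      apply le_antisymm
      · rintro _ ⟨t, rfl⟩
        change L (E t) ∈ _
        generalize E t = u
        induction u using TensorProduct.induction_on with
        | zero => rw [map_zero]; exact Subalgebra.zero_mem _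
        | tmul x y =>
          have h1 : L (x ⊗ₜ y) = Φ x * ψ y := Algebra.TensorProduct.lift_tmul _ _ _ _ _
          rw [h1]
          apply Subalgebra.mul_mem
          · apply hsmall
            rw [← hΦ]; exact ⟨x, rfl⟩
          · exact Algebra.subset_adjoin (Set.mem_iUnion.mpr ⟨Fin.last k, y, rfl⟩)
        | add u v hu hv => rw [map_add]; exact Subalgebra.add_mem _ hu hv
      · apply Algebra.adjoin_le
        intro z hz
        obtain ⟨i, x, rfl⟩ := Set.mem_iUnion.mp hz
        induction i using Fin.lastCases with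
        | last =>
          refine ⟨E.symm (1 ⊗ₜ x), ?_⟩
          change L (E (E.symm (1 ⊗ₜ x))) = _
          rw [AlgEquiv.apply_symm_apply]
          have h1 : L (1 ⊗ₜ x) = Φ 1 * ψ x := Algebra.TensorProduct.lift_tmul _ _ _ _ _
          rw [h1, map_one, one_mul]
        | cast j =>
          have h1 : φ j.castSucc x ∈ Φ.range := by
            rw [hΦ]
            exact Algebra.subset_adjoin (Set.mem_iUnion.mpr ⟨j, x, rfl⟩)
          obtain ⟨w, hw⟩ := h1
          refine ⟨E.symm (w ⊗ₜ 1), ?_⟩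
          change L (E (E.symm (w ⊗ₜ 1))) = _
          rw [AlgEquiv.apply_symm_apply]
          have h2 : L (w ⊗ₜ 1) = Φ w * ψ 1 := Algebra.TensorProduct.lift_tmul _ _ _ _ _
          rw [h2, map_one, mul_one]
          exact hw

theorem pw (hn : 0 < n) {a k : ℕ} (ha : 0 < a)
    (φ : Fin k → (Matrix (Fin a) (Fin a) F →ₐ[F] Matrix (Fin n) (Fin n) F))
    (hcomm : ∀ i j, i ≠ j → ∀ x y, φ i x * φ j y = φ j y * φ i x)
    (hgen : Algebra.adjoin F (⋃ i, Set.range (φ i)) = ⊤) : n = a ^ k := by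
  obtain ⟨ι, i1, i2, i3, hcard, Φ, hΦ⟩ := pw_aux ha k φ hcomm
  rw [hgen] at hΦ
  haveI : Nonempty (Fin n) := ⟨⟨0, hn⟩⟩
  have hinj : Function.Injective Φ := RingHom.injective Φ.toRingHom
  have hsurj : Function.Surjective Φ := AlgHom.range_eq_top Φ |>.mp hΦ
  have e := LinearEquiv.ofBijective Φ.toLinearMap ⟨hinj, hsurj⟩
  have h1 := e.finrank_eq
  rw [Module.finrank_matrix, Module.finrank_matrix, Module.finrank_self, hcard, Fintype.card_fin,
    mul_one, mul_one] at h1
  exact (Nat.mul_self_inj.mp h1).symm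

end Cfsg.Agent.Lib.Helper5.AschC
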