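import Cfsg.Agent.Lib.Helper5.AschC.Defs

/-! Ladder ASCHC (S5799 + S5838 + S5862), rung QFAC (helper76). -/

set_option autoImplicit false

namespace Cfsg.Agent.Lib.Helper5.AschC

open Cfsg Cfsg.Geo Cfsg.Agent.Lib.Helper77.Asch
open scoped MatrixGroups Matrix Kronecker

variable {n : ℕ} {F : Type*} [Field F]

theorem qfac_comm (Q : Subgroup (GL (Fin n) F)) (c : GL (Fin n) F) (hc : ∀ y ∈ Q, c * y = y * c) :
    ∀ X ∈ spanAlg Q, (c : Matrix (Fin n) (Fin n) F) * X = X * (c : Matrix (Fin n) (Fin n) F) := by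
  have hle : spanAlg Q ≤ Subalgebra.centralizer F {(c : Matrix (Fin n) (Fin n) F)} := by
    apply Algebra.adjoin_le
    rintro _ ⟨y, hy, rfl⟩
    rw [SetLike.mem_coe, Subalgebra.mem_centralizer_iff]
    rintro _ rfl
    rw [← Units.val_mul, ← Units.val_mul, hc y hy]
  intro X hX
  have := hle hX
  rw [Subalgebra.mem_centralizer_iff] at this
  exact this _ rfl

theorem qfac_mem (Q : Subgroup (GL (Fin n) F)) (q : GL (Fin n) F) (hq : q ∈ Q) :
    (q : Matrix (Fin n) (Fin n) F) ∈ spanAlg Q :=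
  Algebra.subset_adjoin ⟨q, hq, rfl⟩

theorem idl_inv_of_fac (Q N : Subgroup (GL (Fin n) F))
    (hfac : ∀ x ∈ N, ∃ q ∈ Q, ∃ c : GL (Fin n) F, (∀ y ∈ Q, c * y = y * c) ∧ x = q * c)
    (I : Submodule F (Matrix (Fin n) (Fin n) F)) (hI : IsIdl (spanAlg Q) I) :
    ∀ g ∈ N, ∀ x ∈ I, conjA g x ∈ I := by
  intro g hg x hx
  obtain ⟨q, hq, c, hc, rfl⟩ := hfac g hg
  have h1 := qfac_comm Q c hc x (hI.le x hx)
  have h2 : (c : Matrix (Fin n) (Fin n) F) * ((c⁻¹ : GL (Fin n) F) : Matrix (Fin n) (Fin n) F) = 1 := by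
    rw [← Units.val_mul, mul_inv_cancel, Units.val_one]
  have h3 : conjA (q * c) x = (q : Matrix (Fin n) (Fin n) F) * x *
      ((q⁻¹ : GL (Fin n) F) : Matrix (Fin n) (Fin n) F) := by
    rw [conjA_apply, mul_inv_rev, Units.val_mul, Units.val_mul]
    calc (q : Matrix (Fin n) (Fin n) F) * (c : Matrix (Fin n) (Fin n) F) * x *
          (((c⁻¹ : GL (Fin n) F) : Matrix (Fin n) (Fin n) F) *
            ((q⁻¹ : GL (Fin n) F) : Matrix (Fin n) (Fin n) F))
        = (q : Matrix (Fin n) (Fin n) F) * ((c : Matrix (Fin n) (Fin n) F) * x) *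
          ((c⁻¹ : GL (Fin n) F) : Matrix (Fin n) (Fin n) F) *
            ((q⁻¹ : GL (Fin n) F) : Matrix (Fin n) (Fin n) F) := by simp only [Matrix.mul_assoc]
      _ = (q : Matrix (Fin n) (Fin n) F) * x * ((c : Matrix (Fin n) (Fin n) F) *
          ((c⁻¹ : GL (Fin n) F) : Matrix (Fin n) (Fin n) F)) *
            ((q⁻¹ : GL (Fin n) F) : Matrix (Fin n) (Fin n) F) := by
          rw [h1]; simp only [Matrix.mul_assoc]
      _ = _ := by rw [h2, Matrix.mul_one]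
  rw [h3]
  exact hI.mul_right _ (qfac_mem Q _ (inv_mem hq)) _ (hI.mul_left _ (qfac_mem Q q hq) _ hx)

theorem cen_finrank_of_fac (hn : 0 < n) (Q N : Subgroup (GL (Fin n) F))
    (hfac : ∀ x ∈ N, ∃ q ∈ Q, ∃ c : GL (Fin n) F, (∀ y ∈ Q, c * y = y * c) ∧ x = q * c)
    (hN : ActsAbsolutelyIrreducibly (matrixSet N)) : Module.finrank F (cen (spanAlg Q)) = 1 := by
  have : Nonempty (Fin n) := ⟨⟨0, hn⟩⟩
  have hbot : cen (spanAlg Q) = ⊥ := by
    rw [eq_bot_iff]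
    intro z hz
    obtain ⟨hzA, hzC⟩ := hz
    rw [SetLike.mem_coe, Subalgebra.mem_centralizer_iff] at hzC
    obtain ⟨c, hc⟩ := hN.2 z (by
      rintro _ ⟨x, hx, rfl⟩
      obtain ⟨q, hq, c, hc, rfl⟩ := hfac x hx
      change z * ((q * c : GL (Fin n) F) : Matrix (Fin n) (Fin n) F) =
        ((q * c : GL (Fin n) F) : Matrix (Fin n) (Fin n) F) * z
      rw [Units.val_mul, ← Matrix.mul_assoc, ← hzC _ (qfac_mem Q q hq), Matrix.mul_assoc,
        ← qfac_comm Q c hc z hzA, Matrix.mul_assoc])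
    rw [hc, ← Algebra.algebraMap_eq_smul_one]
    exact Subalgebra.algebraMap_mem _ _
  rw [hbot]
  exact Subalgebra.finrank_bot

end Cfsg.Agent.Lib.Helper5.AschC
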