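import Cfsg.Agent.Lib.Helper5.AschC.Defs
import Cfsg.Agent.Lib.Helper77.Asch.BURN

/-! Ladder ASCHC (S5799 + S5838 + S5862), rung QGEN (helper76). -/

set_option autoImplicit false

namespace Cfsg.Agent.Lib.Helper5.AschC

open Cfsg Cfsg.Geo Cfsg.Agent.Lib.Helper77.Asch
open scoped MatrixGroups Matrix Kronecker

variable {n : ℕ} {F : Type*} [Field F]

/-- the invertible matrices lying, together with their inverses, in a subalgebra. -/
def qgenS (B : Subalgebra F (Matrix (Fin n) (Fin n) F)) : Subgroup (GL (Fin n) F) where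
  carrier := {y | (y : Matrix (Fin n) (Fin n) F) ∈ B ∧
    ((y⁻¹ : GL (Fin n) F) : Matrix (Fin n) (Fin n) F) ∈ B}
  mul_mem' := by
    rintro x y ⟨hx, hx'⟩ ⟨hy, hy'⟩
    refine ⟨?_, ?_⟩
    · rw [Units.val_mul]; exact B.mul_mem hx hy
    · rw [mul_inv_rev, Units.val_mul]; exact B.mul_mem hy' hx'
  one_mem' := by
    refine ⟨?_, ?_⟩
    · rw [Units.val_one]; exact B.one_mem
    · rw [inv_one, Units.val_one]; exact B.one_mem
  inv_mem' := by
    rintro x ⟨hx, hx'⟩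
    refine ⟨hx', ?_⟩
    rw [inv_inv]; exact hx

theorem adjoin_conj_eq_top (hn : 0 < n) (N Q : Subgroup (GL (Fin n) F)) {k : ℕ} (g : Fin k → GL (Fin n) F)
    (hN : ActsAbsolutelyIrreducibly (matrixSet N))
    (hgen : ∀ x ∈ N, x ∈ (⨆ i, Q.map (MulAut.conj (g i)).toMonoidHom) ⊔ scalars (Fin n) F)
    {a : ℕ} (φ : Matrix (Fin a) (Fin a) F →ₐ[F] Matrix (Fin n) (Fin n) F) (hφ : φ.range = spanAlg Q) :
    Algebra.adjoin F (⋃ i, Set.range ((conjA (g i)).comp φ)) = ⊤ := by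
  set B := Algebra.adjoin F (⋃ i, Set.range ((conjA (g i)).comp φ)) with hB
  have h1 : ∀ i, ∀ x ∈ Q, ((g i * x * (g i)⁻¹ : GL (Fin n) F) : Matrix (Fin n) (Fin n) F) ∈ B := by
    intro i x hx
    have hx' : (x : Matrix (Fin n) (Fin n) F) ∈ φ.range := by
      rw [hφ]
      exact Algebra.subset_adjoin ⟨x, hx, rfl⟩
    obtain ⟨w, hw⟩ := hx'
    replace hw : φ w = (x : Matrix (Fin n) (Fin n) F) := hw
    apply Algebra.subset_adjoin
    rw [Set.mem_iUnion]
    refine ⟨i, w, ?_⟩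
    rw [AlgHom.comp_apply]
    change conjA (g i) (φ w) = _
    rw [hw, conjA_apply, Units.val_mul, Units.val_mul]
  have h2 : (⨆ i, Q.map (MulAut.conj (g i)).toMonoidHom) ⊔ scalars (Fin n) F ≤ qgenS B := by
    apply sup_le
    · apply iSup_le
      intro i
      rintro _ ⟨x, hx, rfl⟩
      refine ⟨h1 i x hx, ?_⟩
      have : ((MulAut.conj (g i)).toMonoidHom x)⁻¹ = g i * x⁻¹ * (g i)⁻¹ := by
        simp [MulAut.conj_apply, mul_assoc]
      rw [this]
      exact h1 i x⁻¹ (inv_mem hx)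
    · have h3 : ∀ y ∈ scalars (Fin n) F, (y : Matrix (Fin n) (Fin n) F) ∈ B := by
        intro y hy
        obtain ⟨c, hc⟩ := (mem_scalars_iff y).1 hy
        rw [hc, ← Algebra.algebraMap_eq_smul_one]
        exact B.algebraMap_mem _
      intro y hy
      exact ⟨h3 y hy, h3 _ (inv_mem hy)⟩
  have h4 : matrixSet N ⊆ (B : Set (Matrix (Fin n) (Fin n) F)) := by
    rintro _ ⟨x, hx, rfl⟩
    exact (h2 (hgen x hx)).1
  have h5 : Submodule.span F (matrixSet N) ≤ Subalgebra.toSubmodule B := Submodule.span_le.2 h4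
  rw [span_eq_top hn N hN] at h5
  rw [eq_top_iff]
  intro x _
  exact h5 (Submodule.mem_top)

theorem qgen_comm_aux (Q : Subgroup (GL (Fin n) F)) (g₁ g₂ : GL (Fin n) F)
    (h : ∀ x ∈ Q, ∀ y ∈ Q, (g₁ * x * g₁⁻¹) * (g₂ * y * g₂⁻¹) = (g₂ * y * g₂⁻¹) * (g₁ * x * g₁⁻¹)) :
    ∀ X ∈ spanAlg Q, ∀ Y ∈ spanAlg Q, conjA g₁ X * conjA g₂ Y = conjA g₂ Y * conjA g₁ X := by
  have hA : ∀ Y ∈ matrixSet Q, ∀ X ∈ spanAlg Q,
      conjA g₁ X * conjA g₂ Y = conjA g₂ Y * conjA g₁ X := by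
    intro Y hY
    have hle : spanAlg Q ≤ (Subalgebra.centralizer F {conjA g₂ Y}).comap (conjA g₁) := by
      apply Algebra.adjoin_le
      rintro _ ⟨x, hx, rfl⟩
      obtain ⟨y, hy, rfl⟩ := hY
      rw [SetLike.mem_coe, Subalgebra.mem_comap, Subalgebra.mem_centralizer_iff]
      rintro _ rfl
      have := congrArg (fun u : GL (Fin n) F => (u : Matrix (Fin n) (Fin n) F)) (h x hx y hy)
      simp only [Units.val_mul] at this
      rw [conjA_apply, conjA_apply]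
      exact this.symm
    intro X hX
    have := hle hX
    rw [Subalgebra.mem_comap, Subalgebra.mem_centralizer_iff] at this
    exact (this _ rfl).symm
  intro X hX
  have hle : spanAlg Q ≤ (Subalgebra.centralizer F {conjA g₁ X}).comap (conjA g₂) := by
    apply Algebra.adjoin_le
    intro Y hY
    rw [SetLike.mem_coe, Subalgebra.mem_comap, Subalgebra.mem_centralizer_iff]
    rintro _ rfl
    exact hA Y hY X hX
  intro Y hY
  have := hle hY
  rw [Subalgebra.mem_comap, Subalgebra.mem_centralizer_iff] at this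
  exact this _ rfl

theorem conj_comm (Q : Subgroup (GL (Fin n) F)) (g₁ g₂ : GL (Fin n) F)
    (h : ∀ x ∈ Q, ∀ y ∈ Q, (g₁ * x * g₁⁻¹) * (g₂ * y * g₂⁻¹) = (g₂ * y * g₂⁻¹) * (g₁ * x * g₁⁻¹))
    {a : ℕ} (φ : Matrix (Fin a) (Fin a) F →ₐ[F] Matrix (Fin n) (Fin n) F) (hφ : φ.range = spanAlg Q) :
    ∀ x y, (conjA g₁).comp φ x * (conjA g₂).comp φ y = (conjA g₂).comp φ y * (conjA g₁).comp φ x := by
  intro x y
  have hx : φ x ∈ spanAlg Q := by rw [← hφ]; exact AlgHom.mem_range_self φ x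
  have hy : φ y ∈ spanAlg Q := by rw [← hφ]; exact AlgHom.mem_range_self φ y
  rw [AlgHom.comp_apply, AlgHom.comp_apply]
  exact qgen_comm_aux Q g₁ g₂ h _ hx _ hy

end Cfsg.Agent.Lib.Helper5.AschC
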