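import Cfsg.Agent.Lib.Helper5.AschC.Defs

set_option autoImplicit false

namespace Cfsg.Agent.Lib.Helper5.AschC

open Cfsg Cfsg.Geo Cfsg.Agent.Lib.Helper77.Asch
open scoped MatrixGroups Matrix Kronecker

variable {n : ℕ} {F : Type*} [Field F]

/-- DIM (small). -/
theorem decomp_dim {t m : ℕ} (D : Fin t → Submodule F (Fin n → F)) (hD : IsMDecomposition m D) : t * m = n := by
  have hint : DirectSum.IsInternal D :=
    DirectSum.isInternal_submodule_of_iSupIndep_of_iSup_eq_top hD.indep hD.iSup_eq_top
  have e := LinearEquiv.ofBijective (DirectSum.coeLinearMap D) hint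
  have h1 := e.finrank_eq
  rw [Module.finrank_directSum, Module.finrank_fin_fun] at h1
  rw [← h1]
  simp [hD.finrank_eq]

end Cfsg.Agent.Lib.Helper5.AschC
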