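import Cfsg.Agent.Lib.Helper5.AschC.Defs

/-! Ladder ASCHC (S5799 + S5838 + S5862), rung DQ2. -/

set_option autoImplicit false

namespace Cfsg.Agent.Lib.Helper5.AschC

open Cfsg Cfsg.Geo Cfsg.Agent.Lib.Helper77.Asch
open scoped MatrixGroups Matrix Kronecker

variable {n : ℕ} {F : Type*} [Field F]

section aux
variable {t : ℕ} (B : Module.Basis (Σ _ : Fin t, Fin 2) F (Fin n → F))

/-- the determinant of the `i`-th components -/
noncomputable def dq2Om (i : Fin t) (x y : Fin n → F) : F :=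
  B.repr x ⟨i, 0⟩ * B.repr y ⟨i, 1⟩ - B.repr x ⟨i, 1⟩ * B.repr y ⟨i, 0⟩

/-- the form -/
noncomputable def dq2F (x y : Fin n → F) : F := ∑ i, dq2Om B i x y

/-- the `i`-th component -/
noncomputable def dq2P (i : Fin t) (x : Fin n → F) : Fin n → F :=
  B.repr x ⟨i, 0⟩ • B ⟨i, 0⟩ + B.repr x ⟨i, 1⟩ • B ⟨i, 1⟩

theorem dq2_sum_P (x : Fin n → F) : ∑ i, dq2P B i x = x := by
  conv_rhs => rw [← B.sum_repr x]
  rw [Fintype.sum_sigma]
  apply Finset.sum_congr rfl
  intro i _
  rw [Fin.sum_univ_two]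
  rfl

theorem dq2_repr_P (i : Fin t) (j : Fin 2) (x : Fin n → F) :
    B.repr (dq2P B i x) ⟨i, j⟩ = B.repr x ⟨i, j⟩ := by
  unfold dq2P
  rw [map_add, map_smul, map_smul, Module.Basis.repr_self, Module.Basis.repr_self]
  fin_cases j <;> simp [Finsupp.single_apply]

theorem dq2_om_P (i : Fin t) (x y : Fin n → F) :
    dq2Om B i (dq2P B i x) (dq2P B i y) = dq2Om B i x y := by
  unfold dq2Om
  simp only [dq2_repr_P]

theorem dq2_bilinear : IsBilinearForm (dq2F B) where
  add_left x y v := by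
    unfold dq2F
    rw [← Finset.sum_add_distrib]
    apply Finset.sum_congr rfl
    intro i _
    unfold dq2Om
    simp only [map_add, Finsupp.add_apply]
    ring
  smul_left c x v := by
    unfold dq2F
    rw [Finset.mul_sum]
    apply Finset.sum_congr rfl
    intro i _
    unfold dq2Om
    simp only [map_smul, Finsupp.smul_apply, smul_eq_mul]
    ring
  add_right v x y := by
    unfold dq2F
    rw [← Finset.sum_add_distrib]
    apply Finset.sum_congr rfl
    intro i _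
    unfold dq2Om
    simp only [map_add, Finsupp.add_apply]
    ring
  smul_right c v x := by
    unfold dq2F
    rw [Finset.mul_sum]
    apply Finset.sum_congr rfl
    intro i _
    unfold dq2Om
    simp only [map_smul, Finsupp.smul_apply, smul_eq_mul]
    ring

theorem dq2_skew (v w : Fin n → F) : dq2F B v w = - dq2F B w v := by
  unfold dq2F
  rw [← Finset.sum_neg_distrib]
  apply Finset.sum_congr rfl
  intro i _
  unfold dq2Om
  ring

theorem dq2_alt (v : Fin n → F) : dq2F B v v = 0 := by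
  unfold dq2F
  apply Finset.sum_eq_zero
  intro i _
  unfold dq2Om
  ring

theorem dq2_F_basis (i : Fin t) (j : Fin 2) (v : Fin n → F) :
    dq2F B (B ⟨i, j⟩) v = if j = 0 then B.repr v ⟨i, 1⟩ else - B.repr v ⟨i, 0⟩ := by
  classical
  unfold dq2F
  rw [Finset.sum_eq_single i]
  · unfold dq2Om
    rw [Module.Basis.repr_self]
    fin_cases j <;> simp [Finsupp.single_apply]
  · intro l _ hl
    unfold dq2Om
    rw [Module.Basis.repr_self]
    have h0 : ∀ k : Fin 2, (⟨i, j⟩ : Σ _ : Fin t, Fin 2) ≠ ⟨l, k⟩ := by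
      intro k h
      exact hl (congrArg Sigma.fst h).symm
    rw [Finsupp.single_apply, Finsupp.single_apply, if_neg (h0 0), if_neg (h0 1)]
    ring
  · intro h; exact absurd (Finset.mem_univ i) h

theorem dq2_nondeg : IsNondegenerateForm (dq2F B) := by
  intro v hv
  have h1 : ∃ x, dq2F B x v ≠ 0 := by
    by_contra hcon
    push Not at hcon
    apply hv
    apply B.repr.injective
    rw [map_zero]
    ext ⟨i, j⟩
    have h0 := hcon (B ⟨i, 0⟩)
    have h1 := hcon (B ⟨i, 1⟩)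
    rw [dq2_F_basis, if_pos rfl] at h0
    rw [dq2_F_basis, if_neg (by decide), neg_eq_zero] at h1
    fin_cases j
    · exact h1
    · exact h0
  refine ⟨h1, ?_⟩
  obtain ⟨x, hx⟩ := h1
  refine ⟨x, ?_⟩
  rw [dq2_skew]
  exact neg_ne_zero.mpr hx

theorem dq2_symplectic : IsSymplecticForm (dq2F B) :=
  ⟨dq2_bilinear B, dq2_skew B, dq2_alt B, dq2_nondeg B⟩

variable (D : Fin t → Submodule F (Fin n → F))

theorem dq2_ext (hB0 : ∀ i l, i ≠ l → ∀ x ∈ D i, ∀ j, B.repr x ⟨l, j⟩ = 0) (m : Fin t)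
    (u w : Fin n → F) (hu : u ∈ D m) (hw : w ∈ D m) :
    u = w ↔ (B.repr u ⟨m, 0⟩ = B.repr w ⟨m, 0⟩ ∧ B.repr u ⟨m, 1⟩ = B.repr w ⟨m, 1⟩) := by
  constructor
  · rintro rfl
    exact ⟨rfl, rfl⟩
  · rintro ⟨h0, h1⟩
    apply B.repr.injective
    ext ⟨l, j⟩
    by_cases hl : m = l
    · subst hl
      fin_cases j
      · exact h0
      · exact h1
    · rw [hB0 m l hl u hu, hB0 m l hl w hw]

open Classical in
theorem dq2_key (h01 : ∀ c : F, c = 0 ∨ c = 1) (h2 : (-1 : F) = 1)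
    (hB0 : ∀ i l, i ≠ l → ∀ x ∈ D i, ∀ j, B.repr x ⟨l, j⟩ = 0) (m : Fin t)
    (u w : Fin n → F) (hu : u ∈ D m) (hw : w ∈ D m) :
    dq2Om B m u w = if (u ≠ 0 ∧ w ≠ 0 ∧ u ≠ w) then 1 else 0 := by
  have e1 := dq2_ext B D hB0 m u 0 hu (D m).zero_mem
  have e2 := dq2_ext B D hB0 m w 0 hw (D m).zero_mem
  have e3 := dq2_ext B D hB0 m u w hu hw
  simp only [map_zero, Finsupp.coe_zero, Pi.zero_apply] at e1 e2
  simp only [Ne, e1, e2, e3]
  unfold dq2Om
  rcases h01 (B.repr u ⟨m, 0⟩) with a0 | a0 <;> rcases h01 (B.repr u ⟨m, 1⟩) with a1 | a1 <;>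
    rcases h01 (B.repr w ⟨m, 0⟩) with b0 | b0 <;> rcases h01 (B.repr w ⟨m, 1⟩) with b1 | b1 <;>
    simp [a0, a1, b0, b1, h2]

end aux

theorem decomp_two_two [Fintype F] (hq : Fintype.card F = 2) {t : ℕ} (D : Fin t → Submodule F (Fin n → F))
    (hD : IsMDecomposition 2 D) :
    ∃ f : (Fin n → F) → (Fin n → F) → F, IsSymplecticForm f ∧ decompositionStabilizer D ≤ similarityGroup f := by
  classical
  have h01 : ∀ c : F, c = 0 ∨ c = 1 := by
    intro c
    by_contra hc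
    push Not at hc
    have h3 : ({0, 1, c} : Finset F).card = 3 := by
      rw [Finset.card_insert_of_notMem, Finset.card_insert_of_notMem, Finset.card_singleton]
      · simpa using hc.2.symm
      · simp only [Finset.mem_insert, Finset.mem_singleton, not_or]
        exact ⟨zero_ne_one, hc.1.symm⟩
    have h4 := Finset.card_le_univ ({0, 1, c} : Finset F)
    omega
  have h2 : (-1 : F) = 1 := by
    rcases h01 (-1) with h | h
    · exact absurd (neg_eq_zero.mp h) one_ne_zero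
    · exact h
  have hint := DirectSum.isInternal_submodule_of_iSupIndep_of_iSup_eq_top hD.indep hD.iSup_eq_top
  let b : ∀ i, Module.Basis (Fin 2) F (D i) := fun i => Module.finBasisOfFinrankEq F (D i) (hD.finrank_eq i)
  let B : Module.Basis (Σ _ : Fin t, Fin 2) F (Fin n → F) := hint.collectedBasis b
  have hBm : ∀ i j, B ⟨i, j⟩ ∈ D i := fun i j => hint.collectedBasis_mem b ⟨i, j⟩
  have hB0 : ∀ i l, i ≠ l → ∀ x ∈ D i, ∀ j, B.repr x ⟨l, j⟩ = 0 := fun i l hil x hx j =>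
    hint.collectedBasis_repr_of_mem_ne b hil hx
  have hPm : ∀ i x, dq2P B i x ∈ D i := fun i x =>
    (D i).add_mem ((D i).smul_mem _ (hBm i 0)) ((D i).smul_mem _ (hBm i 1))
  refine ⟨dq2F B, dq2_symplectic B, ?_⟩
  rintro g ⟨σ, hσ⟩
  refine ⟨1, fun u v => ?_⟩
  rw [Units.val_one, one_mul]
  have hgm : ∀ i, ∀ x ∈ D i, (g : Matrix (Fin n) (Fin n) F) *ᵥ x ∈ D (σ i) := by
    intro i x hx
    rw [← hσ i]
    exact ⟨x, hx, Matrix.toLin'_apply _ _⟩
  have hginj : ∀ x y : Fin n → F, (g : Matrix (Fin n) (Fin n) F) *ᵥ x = (g : Matrix (Fin n) (Fin n) F) *ᵥ y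
      ↔ x = y := by
    intro x y
    constructor
    · intro h
      have h1 := congrArg (fun z => ((g⁻¹ : GL (Fin n) F) : Matrix (Fin n) (Fin n) F) *ᵥ z) h
      simp only [Matrix.mulVec_mulVec, ← Units.val_mul, inv_mul_cancel, Units.val_one,
        Matrix.one_mulVec] at h1
      exact h1
    · rintro rfl; rfl
  have hrep : ∀ (i : Fin t) (j : Fin 2) (x : Fin n → F),
      B.repr ((g : Matrix (Fin n) (Fin n) F) *ᵥ x) ⟨σ i, j⟩
        = B.repr ((g : Matrix (Fin n) (Fin n) F) *ᵥ dq2P B i x) ⟨σ i, j⟩ := by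
    intro i j x
    conv_lhs => rw [← dq2_sum_P B x, Matrix.mulVec_sum, map_sum, Finsupp.finsetSum_apply]
    rw [Finset.sum_eq_single i]
    · intro l _ hl
      exact hB0 (σ l) (σ i) (fun h => hl (σ.injective h)) _ (hgm l _ (hPm l x)) j
    · intro h; exact absurd (Finset.mem_univ i) h
  have hom : ∀ i, dq2Om B (σ i) ((g : Matrix (Fin n) (Fin n) F) *ᵥ u) ((g : Matrix (Fin n) (Fin n) F) *ᵥ v)
      = dq2Om B i u v := by
    intro i
    have h1 : dq2Om B (σ i) ((g : Matrix (Fin n) (Fin n) F) *ᵥ u) ((g : Matrix (Fin n) (Fin n) F) *ᵥ v)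
        = dq2Om B (σ i) ((g : Matrix (Fin n) (Fin n) F) *ᵥ dq2P B i u)
            ((g : Matrix (Fin n) (Fin n) F) *ᵥ dq2P B i v) := by
      unfold dq2Om
      rw [hrep i 0 u, hrep i 1 u, hrep i 0 v, hrep i 1 v]
    rw [h1, dq2_key B D h01 h2 hB0 (σ i) _ _ (hgm i _ (hPm i u)) (hgm i _ (hPm i v)),
      ← dq2_om_P B i u v, dq2_key B D h01 h2 hB0 i _ _ (hPm i u) (hPm i v)]
    have z : ∀ x : Fin n → F, (g : Matrix (Fin n) (Fin n) F) *ᵥ x = 0 ↔ x = 0 := by
      intro x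
      rw [← hginj x 0, Matrix.mulVec_zero]
    simp only [Ne, z, hginj]
  unfold dq2F
  rw [← Equiv.sum_comp σ]
  exact Finset.sum_congr rfl (fun i _ => hom i)

end Cfsg.Agent.Lib.Helper5.AschC
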