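import Cfsg.Agent.Lib.Helper5.AschC.Defs
import Cfsg.Agent.Lib.Helper77.Asch.PR3

/-! Ladder ASCHC (S5799 + S5838 + S5862), rung PRK. -/

set_option autoImplicit false

namespace Cfsg.Agent.Lib.Helper5.AschC

open Cfsg Cfsg.Geo Cfsg.Agent.Lib.Helper77.Asch
open scoped MatrixGroups Matrix Kronecker

variable {n : ℕ} {F : Type*} [Field F]

/-- PRK.  SL is not contained in the normaliser of a field subalgebra of degree `r > 1`. -/
theorem not_le_fieldNormalizer' (h3 : 3 ≤ n) (r : ℕ) (hr : 1 < r) (K : Subalgebra F (Matrix (Fin n) (Fin n) F))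
    (hK : IsFieldSubalgebra r K) : ¬ specialLinear (Fin n) F ≤ subalgebraNormalizer K := by
  classical
  intro hle
  have hcomm : ∀ i j : Fin n, i ≠ j → ∀ k ∈ K, Commute (Matrix.single i j (1 : F)) k := by
    intro i j hij k hk
    have hτ : (Matrix.transvection i j (1 : F)) * k * Matrix.transvection i j (-1) ∈ K :=
      (hle (pr3Tv_mem i j hij) k).1 hk
    obtain ⟨D, hD⟩ : ∃ D, D = (Matrix.transvection i j (1 : F)) * k * Matrix.transvection i j (-1) - k :=
      ⟨_, rfl⟩
    have hDK : D ∈ K := by rw [hD]; exact K.sub_mem hτ hk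
    have hDτ : D * Matrix.transvection i j (1 : F) = Matrix.single i j (1 : F) * k - k * Matrix.single i j (1 : F) := by
      rw [hD, sub_mul, mul_assoc, Matrix.transvection_mul_transvection_same i j hij]
      simp only [Matrix.transvection]
      simp [add_mul, mul_add]
    have hD0 : D = 0 := by
      by_contra hne
      obtain ⟨y, _, hy⟩ := hK.inv D hDK hne
      obtain ⟨z, hz0, hz1, hz2⟩ := pr3_exists_perp h3 (Pi.single j (1 : F) ᵥ* k) (Pi.single j (1 : F))
      have hdet : (D * Matrix.transvection i j (1 : F)).det = 0 := by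
        rw [← Matrix.exists_mulVec_eq_zero_iff]
        refine ⟨z, hz0, ?_⟩
        rw [hDτ, Matrix.sub_mulVec, ← Matrix.mulVec_mulVec, ← Matrix.mulVec_mulVec,
          Matrix.single_mulVec_eq, Matrix.single_mulVec_eq]
        have e1 : (k *ᵥ z) j = 0 := by
          rw [← Matrix.dotProduct_mulVec] at hz1
          simpa using hz1
        have e2 : z j = 0 := by simpa using hz2
        rw [e1, e2]
        simp
      rw [Matrix.det_mul, Matrix.det_transvection_of_ne i j hij, mul_one] at hdet
      have := congrArg Matrix.det hy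
      rw [Matrix.det_mul, hdet, zero_mul, Matrix.det_one] at this
      exact zero_ne_one this
    rw [hD0, zero_mul] at hDτ
    exact (sub_eq_zero.1 hDτ.symm)
  have hbot : K = ⊥ := by
    rw [eq_bot_iff]
    intro k hk
    obtain ⟨c, hc⟩ := Matrix.mem_range_scalar_of_commute_single (M := k)
      (fun i j hij => hcomm i j hij k hk)
    rw [Algebra.mem_bot]
    refine ⟨c, ?_⟩
    rw [← hc]
    rfl
  have hfr := hK.finrank_eq
  rw [hbot] at hfr
  have : Nonempty (Fin n) := ⟨⟨0, by omega⟩⟩
  rw [Subalgebra.finrank_bot] at hfr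
  omega

end Cfsg.Agent.Lib.Helper5.AschC
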