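import Cfsg.Agent.Lib.Helper5.AschC.Defs
import Cfsg.Agent.Lib.Helper77.Asch.PR3

/-! Ladder ASCHC (S5799 + S5838 + S5862), rung PRT. -/

set_option autoImplicit false

namespace Cfsg.Agent.Lib.Helper5.AschC

open Cfsg Cfsg.Geo Cfsg.Agent.Lib.Helper77.Asch
open scoped MatrixGroups Matrix Kronecker

variable {n : ℕ} {F : Type*} [Field F]

/-- PRT.  SL is not contained in a tensor product subgroup. -/
theorem not_le_tensor {a b : ℕ} (ha : 2 ≤ a) (hb : 2 ≤ b) (e : Fin n ≃ Fin a × Fin b) (P : GL (Fin n) F) :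
    ¬ specialLinear (Fin n) F ≤ tensorProductSubgroup a b e P := by
  intro hle
  let i0 : Fin a := ⟨0, by omega⟩
  let i1 : Fin a := ⟨1, by omega⟩
  let k0 : Fin b := ⟨0, by omega⟩
  let k1 : Fin b := ⟨1, by omega⟩
  have hi : i0 ≠ i1 := by simp [i0, i1, Fin.ext_iff]
  have hk : k0 ≠ k1 := by simp [k0, k1, Fin.ext_iff]
  have hIJ : e.symm (i0, k0) ≠ e.symm (i1, k1) := by
    intro h
    have := e.symm.injective h
    exact hi (Prod.ext_iff.1 this).1
  have hIJ' : e.symm (i0, k0) ≠ e.symm (i1, k0) := by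
    intro h
    have := e.symm.injective h
    exact hi (Prod.ext_iff.1 this).1
  have hJJ' : e.symm (i1, k1) ≠ e.symm (i1, k0) := by
    intro h
    have := e.symm.injective h
    exact hk (Prod.ext_iff.1 this).2.symm
  have hn : (specialLinear (Fin n) F).Normal := by
    unfold specialLinear
    infer_instance
  have h1 : P * pr3Tv (e.symm (i0, k0)) (e.symm (i1, k1)) hIJ * P⁻¹ ∈ tensorProductSubgroup a b e P :=
    hle (hn.conj_mem _ (pr3Tv_mem _ _ hIJ) P)
  obtain ⟨x, hx, hxe⟩ := h1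
  have hxt : x = pr3Tv (e.symm (i0, k0)) (e.symm (i1, k1)) hIJ := by
    have : P * x * P⁻¹ = P * pr3Tv (e.symm (i0, k0)) (e.symm (i1, k1)) hIJ * P⁻¹ := hxe
    simpa using this
  rw [hxt] at hx
  obtain ⟨k, ⟨A, B, hAB⟩, hke⟩ := hx
  have hent : ∀ i j : Fin n, (Matrix.transvection (e.symm (i0, k0)) (e.symm (i1, k1)) (1 : F)) i j =
      (A : Matrix (Fin a) (Fin a) F) (e i).1 (e j).1 * (B : Matrix (Fin b) (Fin b) F) (e i).2 (e j).2 := by
    intro i j
    have h2 : ((pr3Tv (e.symm (i0, k0)) (e.symm (i1, k1)) hIJ : GL (Fin n) F) : Matrix (Fin n) (Fin n) F) i j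
        = (k : Matrix (Fin a × Fin b) (Fin a × Fin b) F) (e i) (e j) := by
      rw [← hke]
      rfl
    rw [hAB, Matrix.kroneckerMap_apply] at h2
    exact h2
  have e1 := hent (e.symm (i0, k0)) (e.symm (i1, k1))
  have e2 := hent (e.symm (i0, k0)) (e.symm (i0, k0))
  have e3 := hent (e.symm (i0, k0)) (e.symm (i1, k0))
  simp only [Matrix.transvection, Matrix.add_apply, Matrix.one_apply, Matrix.single_apply,
    Equiv.apply_symm_apply] at e1 e2 e3
  simp [hIJ, hIJ.symm, hIJ', hJJ'] at e1 e2 e3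
  rcases e3 with h | h
  · rw [h, zero_mul] at e1
    exact one_ne_zero e1
  · rw [h, mul_zero] at e2
    exact one_ne_zero e2

end Cfsg.Agent.Lib.Helper5.AschC
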