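import Cfsg.Agent.Lib.Helper5.AschC.Defs

/-! Ladder ASCHC (S5799 + S5838 + S5862), rung CENF. -/

set_option autoImplicit false

namespace Cfsg.Agent.Lib.Helper5.AschC

open Cfsg Cfsg.Geo Cfsg.Agent.Lib.Helper77.Asch
open scoped MatrixGroups Matrix Kronecker

variable {n : ℕ} {F : Type*} [Field F]

/-- CENF. -/
theorem cen_field [Finite F] (A : Subalgebra F (Matrix (Fin n) (Fin n) F)) (U : Submodule F (Fin n → F))
    (h : FaithIrr A U) : IsFieldSubalgebra (Module.finrank F (cen A)) (cen A) := by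
  refine ⟨?_, ?_, rfl⟩
  · intro x hx y hy
    exact (Subalgebra.mem_centralizer_iff F).1 hy.2 x hx.1
  · intro z hz hz0
    have hzA : z ∈ A := hz.1
    have hzc : ∀ a ∈ A, a * z = z * a := (Subalgebra.mem_centralizer_iff F).1 hz.2
    -- `z` is injective on `U`
    have hinj : ∀ u ∈ U, z *ᵥ u = 0 → u = 0 := by
      have hW := h.irr (U ⊓ LinearMap.ker (Matrix.mulVecLin z)) inf_le_left (by
        intro a ha w hw
        refine ⟨h.inv a ha w hw.1, ?_⟩
        have hw2 : z *ᵥ w = 0 := hw.2
        change z *ᵥ (a *ᵥ w) = 0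
        rw [Matrix.mulVec_mulVec, ← hzc a ha, ← Matrix.mulVec_mulVec, hw2, Matrix.mulVec_zero])
      rcases hW with hW | hW
      · intro u hu hzu
        have : u ∈ U ⊓ LinearMap.ker (Matrix.mulVecLin z) := ⟨hu, hzu⟩
        rw [hW] at this
        exact (Submodule.mem_bot F).1 this
      · exfalso
        apply hz0
        apply h.faith z hzA
        intro u hu
        rw [← hW] at hu
        exact hu.2
    have hpowU : ∀ (i : ℕ), ∀ u ∈ U, (z ^ i) *ᵥ u ∈ U :=
      fun i u hu => h.inv _ (A.pow_mem hzA i) u hu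
    have hinjpow : ∀ (i : ℕ), ∀ u ∈ U, (z ^ i) *ᵥ u = 0 → u = 0 := by
      intro i
      induction i with
      | zero =>
        intro u _ hu0
        rwa [pow_zero, Matrix.one_mulVec] at hu0
      | succ i ih =>
        intro u hu hu0
        rw [pow_succ, ← Matrix.mulVec_mulVec] at hu0
        exact hinj u hu (ih _ (h.inv z hzA u hu) hu0)
    obtain ⟨i, j, hij, hzij⟩ := Finite.exists_ne_map_eq_of_infinite (fun i : ℕ => z ^ i)
    have key : ∀ i j : ℕ, i < j → z ^ i = z ^ j → ∃ y ∈ cen A, z * y = 1 := by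
      intro i j hlt hzij
      obtain ⟨k, rfl⟩ : ∃ k, j = i + (k + 1) := ⟨j - i - 1, by omega⟩
      have h1 : z ^ (k + 1) - 1 = 0 := by
        apply h.faith _ (A.sub_mem (A.pow_mem hzA _) A.one_mem)
        intro u hu
        apply hinjpow i _
        · rw [Matrix.sub_mulVec, Matrix.one_mulVec]
          exact U.sub_mem (hpowU _ u hu) hu
        · rw [Matrix.mulVec_mulVec, mul_sub, ← pow_add, mul_one, ← hzij, sub_self,
            Matrix.zero_mulVec]
      refine ⟨z ^ k, (cen A).pow_mem hz k, ?_⟩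
      rw [← pow_succ', sub_eq_zero.1 h1]
    rcases lt_or_gt_of_ne hij with hlt | hlt
    · exact key i j hlt hzij
    · exact key j i hlt hzij.symm

end Cfsg.Agent.Lib.Helper5.AschC
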