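import Cfsg.Agent.Lib.Helper5.AschC.Defs

/-! Ladder ASCHC (S5799 + S5838 + S5862), rung FLD. -/

set_option autoImplicit false

namespace Cfsg.Agent.Lib.Helper5.AschC

open Cfsg Cfsg.Geo Cfsg.Agent.Lib.Helper77.Asch
open scoped MatrixGroups Matrix Kronecker

variable {n : ℕ} {F : Type*} [Field F]

/-- the subfield of degree `r` of a finite extension of a finite field, inside an algebra -/
theorem fld_core [Fintype F] {L : Type*} [Field L] [Algebra F L] [FiniteDimensional F L]
    {M : Type*} [Ring M] [Algebra F M] (φ : L →ₐ[F] M) (hφ : Function.Injective φ) (r : ℕ) (hr : 0 < r)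
    (hrd : r ∣ Module.finrank F L) :
    ∃ K' : Subalgebra F M, (∀ x, x ∈ K' ↔ x ∈ φ.range ∧ x ^ (Fintype.card F ^ r) = x) ∧
      Module.finrank F K' = r := by
  haveI : Finite L := Module.finite_of_finite F
  set fr := FiniteField.frobeniusAlgEquivOfAlgebraic F L with hfr
  set d := Module.finrank F L with hd
  have hd0 : 0 < d := Module.finrank_pos
  have hfix : ∀ x : L, (fr ^ r) x = x ^ (Fintype.card F ^ r) := by
    intro x
    rw [AlgEquiv.coe_pow, hfr, FiniteField.coe_frobeniusAlgEquivOfAlgebraic_iterate]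
  set H := Subgroup.zpowers (fr ^ r) with hH
  set E := IntermediateField.fixedField H with hE
  have hmem : ∀ x : L, x ∈ E ↔ x ^ (Fintype.card F ^ r) = x := by
    intro x
    rw [hE, IntermediateField.mem_fixedField_iff, ← hfix]
    constructor
    · intro h
      exact h _ (Subgroup.mem_zpowers _)
    · intro h f hf
      have hle : H ≤ MulAction.stabilizer (L ≃ₐ[F] L) x := by
        rw [hH, Subgroup.zpowers_le]
        exact h
      exact hle hf
  have hcard : Nat.card H = d / r := by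
    rw [hH, Nat.card_zpowers, orderOf_pow' _ hr.ne', hfr, FiniteField.orderOf_frobeniusAlgEquivOfAlgebraic,
      ← hd, Nat.gcd_eq_right hrd]
  have h1 : Module.finrank E L = d / r := by
    rw [hE, IntermediateField.finrank_fixedField_eq_card, hcard]
  have h2 := Module.finrank_mul_finrank F E L
  rw [h1, ← hd] at h2
  have h3 : Module.finrank F E = r := by
    obtain ⟨k, hk⟩ := hrd
    have hk0 : 0 < k := by
      rcases Nat.eq_zero_or_pos k with h0 | h0
      · rw [h0, mul_zero] at hk; omega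
      · exact h0
    rw [hk, Nat.mul_div_cancel_left _ hr] at h2
    exact Nat.eq_of_mul_eq_mul_right hk0 h2
  refine ⟨E.toSubalgebra.map φ, ?_, ?_⟩
  · intro x
    constructor
    · rintro ⟨y, hy, rfl⟩
      refine ⟨⟨y, rfl⟩, ?_⟩
      have := (hmem y).1 hy
      show φ y ^ _ = φ y
      rw [← map_pow, this]
    · rintro ⟨⟨y, rfl⟩, hy⟩
      refine ⟨y, (hmem y).2 (hφ ?_), rfl⟩
      rw [map_pow]
      exact hy
  · rw [← h3]
    exact (Submodule.equivMapOfInjective φ.toLinearMap hφ (Subalgebra.toSubmodule E.toSubalgebra)).finrank_eq.symm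

/-- FLD. -/
theorem exists_prime_subfieldAlg [Fintype F] (d : ℕ) (hd : 1 < d) (K : Subalgebra F (Matrix (Fin n) (Fin n) F))
    (hK : IsFieldSubalgebra d K) :
    ∃ (r : ℕ) (K' : Subalgebra F (Matrix (Fin n) (Fin n) F)), r.Prime ∧ IsFieldSubalgebra r K' ∧
      subalgebraNormalizer K ≤ subalgebraNormalizer K' := by
  haveI : Nontrivial K := Module.nontrivial_of_finrank_pos (R := F) (by rw [hK.finrank_eq]; omega)
  have hf : IsField K :=
    { exists_pair_ne := ⟨0, 1, zero_ne_one⟩
      mul_comm := fun x y => Subtype.ext (hK.comm x.1 x.2 y.1 y.2)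
      mul_inv_cancel := fun {x} hx => by
        obtain ⟨y, hy, hxy⟩ := hK.inv x.1 x.2 (fun h => hx (Subtype.ext h))
        exact ⟨⟨y, hy⟩, Subtype.ext hxy⟩ }
  have hrp : d.minFac.Prime := Nat.minFac_prime (by omega)
  obtain ⟨K', hK', hfin⟩ := @fld_core F _ _ K hf.toField K.algebra inferInstance _ _ _ K.val
    Subtype.val_injective d.minFac hrp.pos (by rw [hK.finrank_eq]; exact Nat.minFac_dvd d)
  set Qq := Fintype.card F ^ d.minFac with hQq
  have hmem : ∀ x, x ∈ K' ↔ x ∈ K ∧ x ^ Qq = x := by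
    intro x
    rw [hK' x]
    constructor
    · rintro ⟨⟨y, rfl⟩, h⟩
      exact ⟨y.2, h⟩
    · rintro ⟨h1, h⟩
      exact ⟨⟨⟨x, h1⟩, rfl⟩, h⟩
  refine ⟨d.minFac, K', hrp, ⟨?_, ?_, hfin⟩, ?_⟩
  · intro x hx y hy
    exact hK.comm x ((hmem x).1 hx).1 y ((hmem y).1 hy).1
  · intro x hx hx0
    obtain ⟨hxK, hxQ⟩ := (hmem x).1 hx
    obtain ⟨y, hy, hxy⟩ := hK.inv x hxK hx0
    refine ⟨y, (hmem y).2 ⟨hy, ?_⟩, hxy⟩
    have hc : Commute x y := hK.comm x hxK y hy
    have h1 : x * y ^ Qq = 1 := by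
      have := hc.mul_pow Qq
      rw [hxy, one_pow, hxQ] at this
      exact this.symm
    have hyx : y * x = 1 := by rw [← hc.eq]; exact hxy
    calc y ^ Qq = (y * x) * y ^ Qq := by rw [hyx, one_mul]
      _ = y * (x * y ^ Qq) := by rw [mul_assoc]
      _ = y := by rw [h1, mul_one]
  · intro g hg k
    rw [hmem, hmem, ← hg k, Units.conj_pow]
    constructor
    · rintro ⟨h1, h2⟩
      exact ⟨h1, by rw [h2]⟩
    · rintro ⟨h1, h2⟩
      refine ⟨h1, ?_⟩
      have h3 := congrArg (fun z => ((g⁻¹ : GL (Fin n) F) : Matrix (Fin n) (Fin n) F) * z * (g : Matrix (Fin n) (Fin n) F)) h2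
      simp only [← mul_assoc, Units.inv_mul, one_mul] at h3
      simpa [mul_assoc] using h3

end Cfsg.Agent.Lib.Helper5.AschC
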