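import Cfsg.Agent.Lib.Helper5.AschC.Defs

/-! Ladder ASCHC (S5799 + S5838 + S5862), rung IDF. -/

set_option autoImplicit false

namespace Cfsg.Agent.Lib.Helper5.AschC

open Cfsg Cfsg.Geo Cfsg.Agent.Lib.Helper77.Asch
open scoped MatrixGroups Matrix Kronecker

variable {n : ℕ} {F : Type*} [Field F]

theorem idf_eq_zero (a : Matrix (Fin n) (Fin n) F) (h : ∀ v, a *ᵥ v = 0) : a = 0 := by
  apply Matrix.toLin'.injective
  apply LinearMap.ext
  intro v
  rw [Matrix.toLin'_apply, h v, map_zero, LinearMap.zero_apply]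

theorem idf_inv_mul (g : GL (Fin n) F) :
    ((g⁻¹ : GL (Fin n) F) : Matrix (Fin n) (Fin n) F) * (g : Matrix (Fin n) (Fin n) F) = 1 := by
  rw [← Units.val_mul, inv_mul_cancel, Units.val_one]

theorem idf_mul_inv (g : GL (Fin n) F) :
    (g : Matrix (Fin n) (Fin n) F) * ((g⁻¹ : GL (Fin n) F) : Matrix (Fin n) (Fin n) F) = 1 := by
  rw [← Units.val_mul, mul_inv_cancel, Units.val_one]

/-- a non-zero invariant subspace of minimal dimension -/
theorem idf_exists_min (hn : 0 < n) (A : Subalgebra F (Matrix (Fin n) (Fin n) F)) :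
    ∃ U : Submodule F (Fin n → F), U ≠ ⊥ ∧ (∀ a ∈ A, ∀ u ∈ U, a *ᵥ u ∈ U) ∧
      ∀ W : Submodule F (Fin n → F), W ≤ U → (∀ a ∈ A, ∀ w ∈ W, a *ᵥ w ∈ W) → W = ⊥ ∨ W = U := by
  classical
  have : Nonempty (Fin n) := ⟨⟨0, hn⟩⟩
  have hex : ∃ d, ∃ U : Submodule F (Fin n → F), U ≠ ⊥ ∧ (∀ a ∈ A, ∀ u ∈ U, a *ᵥ u ∈ U) ∧
      Module.finrank F U = d :=
    ⟨_, ⊤, top_ne_bot, fun _ _ _ _ => Submodule.mem_top, rfl⟩
  obtain ⟨U, hU0, hUinv, hUd⟩ := Nat.find_spec hex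
  refine ⟨U, hU0, hUinv, fun W hWU hW => ?_⟩
  by_contra hcon
  push Not at hcon
  have hlt : Module.finrank F W < Module.finrank F U :=
    Submodule.finrank_lt_finrank_of_lt (lt_of_le_of_ne hWU hcon.2)
  exact Nat.find_min hex (hUd ▸ hlt) ⟨W, hcon.1, hW, rfl⟩

/-- IDF. -/
theorem ideal_faith (hn : 0 < n) (G : Subgroup (GL (Fin n) F)) (hG : ActsIrreducibly (matrixSet G))
    (A : Subalgebra F (Matrix (Fin n) (Fin n) F)) (hA : G ≤ subalgebraNormalizer A)
    (I : Submodule F (Matrix (Fin n) (Fin n) F)) (hI : IsMinIdl A I)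
    (hinv : ∀ g ∈ G, ∀ x ∈ I, conjA g x ∈ I) : ∃ U, FaithIrr A U := by
  obtain ⟨U, hU0, hUinv, hUirr⟩ := idf_exists_min hn A
  refine ⟨U, hU0, hUinv, hUirr, ?_⟩
  obtain ⟨x₀, hx₀I, hx₀⟩ : ∃ x ∈ I, x ≠ 0 := by
    by_contra hcon
    push Not at hcon
    exact hI.ne_bot ((Submodule.eq_bot_iff I).2 hcon)
  -- (1) `I V = ⊤`
  have hIV : Submodule.span F {w : Fin n → F | ∃ x ∈ I, ∃ v, w = x *ᵥ v} = ⊤ := by
    rcases hG (Submodule.span F {w : Fin n → F | ∃ x ∈ I, ∃ v, w = x *ᵥ v}) (by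
      rintro s ⟨g, hg, rfl⟩
      rw [Submodule.map_span_le]
      rintro _ ⟨x, hx, v, rfl⟩
      apply Submodule.subset_span
      refine ⟨conjA g x, hinv g hg x hx, (g : Matrix (Fin n) (Fin n) F) *ᵥ v, ?_⟩
      rw [Matrix.toLin'_apply, conjA_apply, Matrix.mulVec_mulVec, Matrix.mulVec_mulVec,
        mul_assoc _ _ (g : Matrix (Fin n) (Fin n) F), idf_inv_mul, mul_one]) with h | h
    · exfalso
      apply hx₀
      apply idf_eq_zero
      intro v
      have : x₀ *ᵥ v ∈ Submodule.span F {w : Fin n → F | ∃ x ∈ I, ∃ v, w = x *ᵥ v} :=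
        Submodule.subset_span ⟨x₀, hx₀I, v, rfl⟩
      rw [h] at this
      exact (Submodule.mem_bot F).1 this
    · exact h
  -- (2) `I U ≠ 0`
  have hIU : ¬ ∀ x ∈ I, ∀ u ∈ U, x *ᵥ u = 0 := by
    intro hcon
    obtain ⟨K, hK⟩ : ∃ K : Submodule F (Fin n → F), ∀ v, v ∈ K ↔ ∀ x ∈ I, x *ᵥ v = 0 := by
      refine ⟨{ carrier := {v | ∀ x ∈ I, x *ᵥ v = 0}
                add_mem' := ?_
                zero_mem' := ?_
                smul_mem' := ?_ }, fun v => Iff.rfl⟩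
      · intro v w hv hw x hx
        rw [Matrix.mulVec_add, hv x hx, hw x hx, add_zero]
      · intro x _
        exact Matrix.mulVec_zero x
      · intro c v hv x hx
        rw [Matrix.mulVec_smul, hv x hx, smul_zero]
    have hUK : U ≤ K := fun u hu => (hK u).2 (fun x hx => hcon x hx u hu)
    rcases hG K (by
      rintro s ⟨g, hg, rfl⟩
      rintro _ ⟨v, hv, rfl⟩
      rw [hK]
      intro x hx
      have h1 := (hK v).1 hv _ (hinv g⁻¹ (G.inv_mem hg) x hx)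
      rw [conjA_apply, inv_inv] at h1
      have h2 : x *ᵥ ((g : Matrix (Fin n) (Fin n) F) *ᵥ v) =
          (g : Matrix (Fin n) (Fin n) F) *ᵥ
            ((((g⁻¹ : GL (Fin n) F) : Matrix (Fin n) (Fin n) F) * x *
              (g : Matrix (Fin n) (Fin n) F)) *ᵥ v) := by
        rw [Matrix.mulVec_mulVec, Matrix.mulVec_mulVec, ← mul_assoc, ← mul_assoc, idf_mul_inv,
          one_mul]
      rw [Matrix.toLin'_apply, h2, h1, Matrix.mulVec_zero]) with h | h
    · apply hU0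
      rw [eq_bot_iff, ← h]
      exact hUK
    · apply hx₀
      apply idf_eq_zero
      intro v
      have : v ∈ K := by rw [h]; exact Submodule.mem_top
      exact (hK v).1 this x₀ hx₀I
  -- (3) the annihilator of `U`
  obtain ⟨P, hP⟩ : ∃ P : Submodule F (Matrix (Fin n) (Fin n) F),
      ∀ a, a ∈ P ↔ a ∈ A ∧ ∀ u ∈ U, a *ᵥ u = 0 := by
    refine ⟨{ carrier := {a | a ∈ A ∧ ∀ u ∈ U, a *ᵥ u = 0}
              add_mem' := ?_
              zero_mem' := ?_
              smul_mem' := ?_ }, fun v => Iff.rfl⟩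
    · rintro a b ⟨ha, ha'⟩ ⟨hb, hb'⟩
      refine ⟨A.add_mem ha hb, fun u hu => ?_⟩
      rw [Matrix.add_mulVec, ha' u hu, hb' u hu, add_zero]
    · exact ⟨A.zero_mem, fun u _ => Matrix.zero_mulVec u⟩
    · rintro c a ⟨ha, ha'⟩
      refine ⟨A.smul_mem ha c, fun u hu => ?_⟩
      rw [Matrix.smul_mulVec, ha' u hu, smul_zero]
  have hPI : IsIdl A (P ⊓ I) := by
    refine ⟨fun x hx => hI.idl.le x hx.2, fun a ha x hx => ⟨?_, hI.idl.mul_left a ha x hx.2⟩,
      fun a ha x hx => ⟨?_, hI.idl.mul_right a ha x hx.2⟩⟩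
    · obtain ⟨h1, h2⟩ := (hP x).1 hx.1
      refine (hP _).2 ⟨A.mul_mem ha h1, fun u hu => ?_⟩
      rw [← Matrix.mulVec_mulVec, h2 u hu, Matrix.mulVec_zero]
    · obtain ⟨h1, h2⟩ := (hP x).1 hx.1
      refine (hP _).2 ⟨A.mul_mem h1 ha, fun u hu => ?_⟩
      rw [← Matrix.mulVec_mulVec, h2 _ (hUinv a ha u hu)]
  have hbot : P ⊓ I = ⊥ := by
    rcases hI.min _ hPI inf_le_right with h | h
    · exact h
    · exfalso
      apply hIU
      intro x hx u hu
      rw [← h] at hx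
      exact ((hP x).1 hx.1).2 u hu
  intro a ha haU
  apply idf_eq_zero
  intro v
  have hv : v ∈ Submodule.span F {w : Fin n → F | ∃ x ∈ I, ∃ v, w = x *ᵥ v} := by
    rw [hIV]; exact Submodule.mem_top
  induction hv using Submodule.span_induction with
  | mem w hw =>
    obtain ⟨x, hx, v, rfl⟩ := hw
    have h1 : a * x ∈ P ⊓ I := by
      refine ⟨(hP _).2 ⟨A.mul_mem ha (hI.idl.le x hx), fun u hu => ?_⟩, hI.idl.mul_left a ha x hx⟩
      rw [← Matrix.mulVec_mulVec, haU _ (hUinv x (hI.idl.le x hx) u hu)]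
    rw [hbot] at h1
    rw [Matrix.mulVec_mulVec, (Submodule.mem_bot F).1 h1, Matrix.zero_mulVec]
  | zero => exact Matrix.mulVec_zero a
  | add x y _ _ hx hy => rw [Matrix.mulVec_add, hx, hy, add_zero]
  | smul c x _ hx => rw [Matrix.mulVec_smul, hx, smul_zero]

end Cfsg.Agent.Lib.Helper5.AschC
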