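import Cfsg.Agent.Lib.Helper5.AschC.Defs

/-! Ladder ASCHC (S5799 + S5838 + S5862), rung ORB1. -/

set_option autoImplicit false

namespace Cfsg.Agent.Lib.Helper5.AschC

open Cfsg Cfsg.Geo Cfsg.Agent.Lib.Helper77.Asch
open scoped MatrixGroups Matrix Kronecker

variable {n : ℕ} {F : Type*} [Field F]

/-- the subspace `J V`. -/
def orb1D (J : Submodule F (Matrix (Fin n) (Fin n) F)) : Submodule F (Fin n → F) :=
  Submodule.span F {w | ∃ x ∈ J, ∃ v : Fin n → F, w = x *ᵥ v}

theorem orb1_mem {J : Submodule F (Matrix (Fin n) (Fin n) F)} {x : Matrix (Fin n) (Fin n) F} (hx : x ∈ J)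
    (v : Fin n → F) : x *ᵥ v ∈ orb1D J :=
  Submodule.subset_span ⟨x, hx, v, rfl⟩

theorem orb1_inv_mul (g : GL (Fin n) F) :
    ((g⁻¹ : GL (Fin n) F) : Matrix (Fin n) (Fin n) F) * (g : Matrix (Fin n) (Fin n) F) = 1 := by
  rw [← Units.val_mul, inv_mul_cancel, Units.val_one]

theorem orb1_mul_inv (g : GL (Fin n) F) :
    (g : Matrix (Fin n) (Fin n) F) * ((g⁻¹ : GL (Fin n) F) : Matrix (Fin n) (Fin n) F) = 1 := by
  rw [← Units.val_mul, mul_inv_cancel, Units.val_one]

theorem orb1_conj_back (g : GL (Fin n) F) (y : Matrix (Fin n) (Fin n) F) :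
    conjA g (((g⁻¹ : GL (Fin n) F) : Matrix (Fin n) (Fin n) F) * y * (g : Matrix (Fin n) (Fin n) F)) = y := by
  rw [conjA_apply]
  calc (g : Matrix (Fin n) (Fin n) F) * (((g⁻¹ : GL (Fin n) F) : Matrix (Fin n) (Fin n) F) * y *
        (g : Matrix (Fin n) (Fin n) F)) * ((g⁻¹ : GL (Fin n) F) : Matrix (Fin n) (Fin n) F)
      = ((g : Matrix (Fin n) (Fin n) F) * ((g⁻¹ : GL (Fin n) F) : Matrix (Fin n) (Fin n) F)) * y *
        ((g : Matrix (Fin n) (Fin n) F) * ((g⁻¹ : GL (Fin n) F) : Matrix (Fin n) (Fin n) F)) := by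
        simp only [mul_assoc]
    _ = y := by rw [orb1_mul_inv, one_mul, mul_one]

theorem orb1_map (g : GL (Fin n) F) (J J' : Submodule F (Matrix (Fin n) (Fin n) F))
    (h : ∀ x, x ∈ J ↔ conjA g x ∈ J') :
    (orb1D J).map (Matrix.toLin' (g : Matrix (Fin n) (Fin n) F)) = orb1D J' := by
  apply le_antisymm
  · rw [orb1D, Submodule.map_span_le]
    rintro _ ⟨x, hx, v, rfl⟩
    have e : Matrix.toLin' (g : Matrix (Fin n) (Fin n) F) (x *ᵥ v)
        = conjA g x *ᵥ ((g : Matrix (Fin n) (Fin n) F) *ᵥ v) := by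
      rw [Matrix.toLin'_apply, conjA_apply, Matrix.mulVec_mulVec, Matrix.mulVec_mulVec, mul_assoc, mul_assoc,
        orb1_inv_mul, mul_one]
    rw [e]
    exact orb1_mem ((h x).1 hx) _
  · rw [orb1D, Submodule.span_le]
    rintro _ ⟨y, hy, v, rfl⟩
    have hx : ((g⁻¹ : GL (Fin n) F) : Matrix (Fin n) (Fin n) F) * y * (g : Matrix (Fin n) (Fin n) F) ∈ J := by
      rw [h, orb1_conj_back]; exact hy
    refine ⟨_, orb1_mem hx (((g⁻¹ : GL (Fin n) F) : Matrix (Fin n) (Fin n) F) *ᵥ v), ?_⟩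
    rw [Matrix.toLin'_apply, Matrix.mulVec_mulVec, Matrix.mulVec_mulVec]
    have := orb1_conj_back g y
    rw [conjA_apply] at this
    rw [this]

theorem orb1_ne_bot {J : Submodule F (Matrix (Fin n) (Fin n) F)} (h : J ≠ ⊥) :
    ∃ x ∈ J, ∃ v : Fin n → F, x *ᵥ v ≠ 0 := by
  obtain ⟨x, hx, hx0⟩ := Submodule.exists_mem_ne_zero_of_ne_bot h
  refine ⟨x, hx, ?_⟩
  by_contra hc
  push Not at hc
  apply hx0
  have : Matrix.toLin' x = 0 := by
    ext1 v
    apply LinearMap.ext
    intro c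
    simp [hc]
  simpa using this

theorem orb1_finrank_map (g : GL (Fin n) F) (W : Submodule F (Fin n → F)) :
    Module.finrank F (W.map (Matrix.toLin' (g : Matrix (Fin n) (Fin n) F))) = Module.finrank F W := by
  have hinj : Function.Injective (Matrix.toLin' (g : Matrix (Fin n) (Fin n) F)) := by
    intro u v huv
    have := congrArg (fun w => ((g⁻¹ : GL (Fin n) F) : Matrix (Fin n) (Fin n) F) *ᵥ w) huv
    simpa [Matrix.toLin'_apply, Matrix.mulVec_mulVec, orb1_inv_mul] using this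
  exact (LinearEquiv.finrank_eq (Submodule.equivMapOfInjective _ hinj W)).symm

/-- ORB1. -/
theorem decomp_of_family (hn : 0 < n) (G : Subgroup (GL (Fin n) F)) (hG : ActsIrreducibly (matrixSet G)) {t : ℕ}
    (J : Fin t → Submodule F (Matrix (Fin n) (Fin n) F)) (ht : 2 ≤ t) (hne : ∀ i, J i ≠ ⊥)
    (hmul : ∀ i j, i ≠ j → ∀ x ∈ J i, ∀ y ∈ J j, x * y = 0)
    (hperm : ∀ g ∈ G, ∃ σ : Equiv.Perm (Fin t), ∀ i x, x ∈ J i ↔ conjA g x ∈ J (σ i))
    (htrans : ∀ i j, ∃ g ∈ G, ∀ x, x ∈ J i ↔ conjA g x ∈ J j) :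
    ∃ (m : ℕ) (D : Fin t → Submodule F (Fin n → F)), IsMDecomposition m D ∧ G ≤ decompositionStabilizer D := by
  classical
  let i0 : Fin t := ⟨0, by omega⟩
  let D : Fin t → Submodule F (Fin n → F) := fun i => orb1D (J i)
  have hDne : ∀ i, D i ≠ ⊥ := by
    intro i h
    obtain ⟨x, hx, v, hv⟩ := orb1_ne_bot (hne i)
    have : x *ᵥ v ∈ D i := orb1_mem hx v
    rw [h, Submodule.mem_bot] at this
    exact hv this
  have hstab : G ≤ decompositionStabilizer D := by
    intro g hg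
    obtain ⟨σ, hσ⟩ := hperm g hg
    exact ⟨σ, fun i => orb1_map g (J i) (J (σ i)) (hσ i)⟩
  -- the sum is everything
  have htop : iSup D = ⊤ := by
    have hinv : ∀ s ∈ matrixSet G, (iSup D).map (Matrix.toLin' s) ≤ iSup D := by
      rintro _ ⟨g, hg, rfl⟩
      obtain ⟨σ, hσ⟩ := hperm g hg
      rw [Submodule.map_iSup]
      apply iSup_le
      intro i
      have : (D i).map (Matrix.toLin' (g : Matrix (Fin n) (Fin n) F)) = D (σ i) :=
        orb1_map g (J i) (J (σ i)) (hσ i)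
      rw [this]
      exact le_iSup D (σ i)
    rcases hG _ hinv with h | h
    · exact absurd (le_bot_iff.1 (h ▸ le_iSup D i0)) (hDne i0)
    · exact h
  -- the common kernel is zero
  let K : Submodule F (Fin n → F) := ⨅ i, ⨅ x : J i, LinearMap.ker (Matrix.toLin' (x : Matrix (Fin n) (Fin n) F))
  have hKmem : ∀ v, v ∈ K ↔ ∀ i, ∀ x ∈ J i, x *ᵥ v = 0 := by
    intro v
    simp only [K, Submodule.mem_iInf, LinearMap.mem_ker, Matrix.toLin'_apply, Subtype.forall]
  have hKbot : K = ⊥ := by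
    have hinv : ∀ s ∈ matrixSet G, K.map (Matrix.toLin' s) ≤ K := by
      rintro _ ⟨g, hg, rfl⟩
      obtain ⟨σ, hσ⟩ := hperm g hg
      rintro _ ⟨v, hv, rfl⟩
      rw [hKmem]
      intro j y hy
      have hv' := (hKmem v).1 hv
      have hx : ((g⁻¹ : GL (Fin n) F) : Matrix (Fin n) (Fin n) F) * y * (g : Matrix (Fin n) (Fin n) F)
          ∈ J (σ.symm j) := by
        rw [hσ, orb1_conj_back, Equiv.apply_symm_apply]; exact hy
      have h0 := hv' _ _ hx
      have h1 := congrArg (fun w => (g : Matrix (Fin n) (Fin n) F) *ᵥ w) h0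
      simp only [Matrix.mulVec_mulVec, Matrix.mulVec_zero] at h1
      rw [Matrix.toLin'_apply, Matrix.mulVec_mulVec]
      rw [← h1]
      congr 1
      rw [← mul_assoc, ← mul_assoc, orb1_mul_inv, one_mul]
    rcases hG _ hinv with h | h
    · exact h
    · exfalso
      obtain ⟨x, hx, v, hv⟩ := orb1_ne_bot (hne i0)
      have : v ∈ K := by rw [h]; trivial
      exact hv ((hKmem v).1 this i0 x hx)
  have hkill : ∀ l i, l ≠ i → ∀ x ∈ J l, D i ≤ LinearMap.ker (Matrix.toLin' x) := by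
    intro l i hli x hx
    show orb1D (J i) ≤ _
    rw [orb1D, Submodule.span_le]
    rintro _ ⟨y, hy, v, rfl⟩
    show _ ∈ LinearMap.ker _
    rw [LinearMap.mem_ker, Matrix.toLin'_apply, Matrix.mulVec_mulVec, hmul l i hli x hx y hy, Matrix.zero_mulVec]
  have hind : iSupIndep D := by
    intro i
    rw [Submodule.disjoint_def]
    intro v hv1 hv2
    have : v ∈ K := by
      rw [hKmem]
      intro l x hx
      by_cases hli : l = i
      · subst hli
        have hle : (⨆ j, ⨆ (_ : j ≠ l), D j) ≤ LinearMap.ker (Matrix.toLin' x) := by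
          apply iSup_le
          intro j
          apply iSup_le
          intro hj
          exact hkill l j (Ne.symm hj) x hx
        have := hle hv2
        rwa [LinearMap.mem_ker, Matrix.toLin'_apply] at this
      · have := hkill l i hli x hx hv1
        rwa [LinearMap.mem_ker, Matrix.toLin'_apply] at this
    rwa [hKbot, Submodule.mem_bot] at this
  have hrank : ∀ i, Module.finrank F (D i) = Module.finrank F (D i0) := by
    intro i
    obtain ⟨g, -, hg⟩ := htrans i0 i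
    have : (D i0).map (Matrix.toLin' (g : Matrix (Fin n) (Fin n) F)) = D i := orb1_map g (J i0) (J i) hg
    rw [← this, orb1_finrank_map]
  refine ⟨Module.finrank F (D i0), D, ⟨ht, ?_, hrank, hind, htop⟩, hstab⟩
  rw [Nat.pos_iff_ne_zero]
  intro h
  exact hDne i0 (Submodule.finrank_eq_zero.1 h)

end Cfsg.Agent.Lib.Helper5.AschC
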