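import Cfsg.Agent.Lib.Helper5.AschC.Defs

/-! Ladder ASCHC (S5799 + S5838 + S5862), rung ORB2. -/

set_option autoImplicit false

namespace Cfsg.Agent.Lib.Helper5.AschC

open Cfsg Cfsg.Geo Cfsg.Agent.Lib.Helper77.Asch
open scoped MatrixGroups Matrix Kronecker

variable {n : ℕ} {F : Type*} [Field F]

theorem orb2_conj_mul (g h : GL (Fin n) F) (x : Matrix (Fin n) (Fin n) F) :
    conjA (g * h) x = conjA g (conjA h x) := by
  simp only [conjA_apply, mul_inv_rev, Units.val_mul, mul_assoc]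

theorem orb2_conj_one (x : Matrix (Fin n) (Fin n) F) : conjA (1 : GL (Fin n) F) x = x := by
  simp [conjA_apply]

theorem orb2_inv_conj (g : GL (Fin n) F) (x : Matrix (Fin n) (Fin n) F) :
    conjA g⁻¹ (conjA g x) = x := by
  rw [← orb2_conj_mul, inv_mul_cancel, orb2_conj_one]

theorem orb2_conj_inv (g : GL (Fin n) F) (x : Matrix (Fin n) (Fin n) F) :
    conjA g (conjA g⁻¹ x) = x := by
  rw [← orb2_conj_mul, mul_inv_cancel, orb2_conj_one]

/-- the conjugate of a subspace of the matrix algebra -/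
def orb2C (g : GL (Fin n) F) (S : Submodule F (Matrix (Fin n) (Fin n) F)) :
    Submodule F (Matrix (Fin n) (Fin n) F) :=
  S.map (conjA g).toLinearMap

theorem orb2_mem {g : GL (Fin n) F} {S : Submodule F (Matrix (Fin n) (Fin n) F)}
    {y : Matrix (Fin n) (Fin n) F} : y ∈ orb2C g S ↔ conjA g⁻¹ y ∈ S := by
  constructor
  · rintro ⟨x, hx, rfl⟩
    change conjA g⁻¹ (conjA g x) ∈ S
    rw [orb2_inv_conj]; exact hx
  · intro h
    exact ⟨_, h, orb2_conj_inv g y⟩

theorem orb2_mem' {g : GL (Fin n) F} {S : Submodule F (Matrix (Fin n) (Fin n) F)}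
    {x : Matrix (Fin n) (Fin n) F} : conjA g x ∈ orb2C g S ↔ x ∈ S := by
  rw [orb2_mem, orb2_inv_conj]

theorem orb2C_mul (g h : GL (Fin n) F) (S : Submodule F (Matrix (Fin n) (Fin n) F)) :
    orb2C (g * h) S = orb2C g (orb2C h S) := by
  ext y
  rw [orb2_mem, orb2_mem, orb2_mem, mul_inv_rev, orb2_conj_mul]

theorem orb2C_one (S : Submodule F (Matrix (Fin n) (Fin n) F)) : orb2C 1 S = S := by
  ext y; rw [orb2_mem, inv_one, orb2_conj_one]

theorem orb2C_bot (g : GL (Fin n) F) : orb2C g (⊥ : Submodule F (Matrix (Fin n) (Fin n) F)) = ⊥ :=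
  Submodule.map_bot _

theorem orb2_norm {A : Subalgebra F (Matrix (Fin n) (Fin n) F)} {g : GL (Fin n) F}
    (hg : g ∈ subalgebraNormalizer A) (x : Matrix (Fin n) (Fin n) F) : x ∈ A ↔ conjA g x ∈ A :=
  hg x

theorem orb2_idl {A : Subalgebra F (Matrix (Fin n) (Fin n) F)}
    {S : Submodule F (Matrix (Fin n) (Fin n) F)} (hS : IsIdl A S) {g : GL (Fin n) F}
    (hg : g ∈ subalgebraNormalizer A) : IsIdl A (orb2C g S) := by
  have hg' := (subalgebraNormalizer A).inv_mem hg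
  refine ⟨?_, ?_, ?_⟩
  · intro y hy
    rw [orb2_mem] at hy
    exact (orb2_norm hg' y).2 (hS.le _ hy)
  · intro a ha y hy
    rw [orb2_mem] at hy ⊢
    rw [map_mul]
    exact hS.mul_left _ ((orb2_norm hg' a).1 ha) _ hy
  · intro a ha y hy
    rw [orb2_mem] at hy ⊢
    rw [map_mul]
    exact hS.mul_right _ ((orb2_norm hg' a).1 ha) _ hy

theorem orb2_min {A : Subalgebra F (Matrix (Fin n) (Fin n) F)}
    {I : Submodule F (Matrix (Fin n) (Fin n) F)} (hI : IsMinIdl A I) {g : GL (Fin n) F}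
    (hg : g ∈ subalgebraNormalizer A) : IsMinIdl A (orb2C g I) := by
  have hg' := (subalgebraNormalizer A).inv_mem hg
  refine ⟨orb2_idl hI.idl hg, ?_, ?_⟩
  · intro h
    apply hI.ne_bot
    have : orb2C g⁻¹ (orb2C g I) = I := by rw [← orb2C_mul, inv_mul_cancel, orb2C_one]
    rw [← this, h, orb2C_bot]
  · intro J hJ hle
    have h1 : orb2C g⁻¹ J ≤ I := by
      intro y hy
      rw [orb2_mem, inv_inv] at hy
      have := hle hy
      rwa [orb2_mem'] at this
    have h2 : orb2C g (orb2C g⁻¹ J) = J := by rw [← orb2C_mul, mul_inv_cancel, orb2C_one]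
    rcases hI.min _ (orb2_idl hJ hg') h1 with h | h
    · left
      rw [← h2, h, orb2C_bot]
    · right
      rw [← h2, h]

theorem orb2_mul_zero {A : Subalgebra F (Matrix (Fin n) (Fin n) F)}
    {I₁ I₂ : Submodule F (Matrix (Fin n) (Fin n) F)} (h₁ : IsMinIdl A I₁) (h₂ : IsMinIdl A I₂)
    (hne : I₁ ≠ I₂) : ∀ x ∈ I₁, ∀ y ∈ I₂, x * y = 0 := by
  have hidl : IsIdl A (I₁ ⊓ I₂) :=
    ⟨fun x hx => h₁.idl.le x hx.1,
     fun a ha x hx => ⟨h₁.idl.mul_left a ha x hx.1, h₂.idl.mul_left a ha x hx.2⟩,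
     fun a ha x hx => ⟨h₁.idl.mul_right a ha x hx.1, h₂.idl.mul_right a ha x hx.2⟩⟩
  have hbot : I₁ ⊓ I₂ = ⊥ := by
    rcases h₁.min _ hidl inf_le_left with h | h
    · exact h
    · exfalso
      have hle : I₁ ≤ I₂ := inf_eq_left.1 h
      rcases h₂.min _ h₁.idl hle with h' | h'
      · exact h₁.ne_bot h'
      · exact hne h'
  intro x hx y hy
  have : x * y ∈ I₁ ⊓ I₂ :=
    ⟨h₁.idl.mul_right y (h₂.idl.le y hy) x hx, h₂.idl.mul_left x (h₁.idl.le x hx) y hy⟩
  rw [hbot] at this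
  exact (Submodule.mem_bot F).1 this

/-- ORB2. -/
theorem orbit_family [Finite F] (G : Subgroup (GL (Fin n) F)) (A : Subalgebra F (Matrix (Fin n) (Fin n) F))
    (hA : G ≤ subalgebraNormalizer A) (I : Submodule F (Matrix (Fin n) (Fin n) F)) (hI : IsMinIdl A I)
    (hninv : ¬ ∀ g ∈ G, ∀ x ∈ I, conjA g x ∈ I) :
    ∃ (t : ℕ) (J : Fin t → Submodule F (Matrix (Fin n) (Fin n) F)), 2 ≤ t ∧ (∀ i, J i ≠ ⊥) ∧
      (∀ i j, i ≠ j → ∀ x ∈ J i, ∀ y ∈ J j, x * y = 0) ∧
      (∀ g ∈ G, ∃ σ : Equiv.Perm (Fin t), ∀ i x, x ∈ J i ↔ conjA g x ∈ J (σ i)) ∧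
      (∀ i j, ∃ g ∈ G, ∀ x, x ∈ J i ↔ conjA g x ∈ J j) := by
  classical
  have hfin : Finite (Submodule F (Matrix (Fin n) (Fin n) F)) :=
    Finite.of_injective (fun S : Submodule F (Matrix (Fin n) (Fin n) F) =>
      (S : Set (Matrix (Fin n) (Fin n) F))) SetLike.coe_injective
  let O : Set (Submodule F (Matrix (Fin n) (Fin n) F)) := {S | ∃ g ∈ G, S = orb2C g I}
  have hOfin : Finite O := inferInstance
  let e := Finite.equivFin O
  refine ⟨Nat.card O, fun i => ((e.symm i : O) : Submodule F (Matrix (Fin n) (Fin n) F)),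
    ?_, ?_, ?_, ?_, ?_⟩
  · push Not at hninv
    obtain ⟨g, hg, x, hx, hxn⟩ := hninv
    have h1 : (⟨I, 1, G.one_mem, (orb2C_one I).symm⟩ : O) ≠ ⟨orb2C g I, g, hg, rfl⟩ := by
      intro h
      have h' : I = orb2C g I := congrArg Subtype.val h
      apply hxn
      rw [h']; exact orb2_mem'.2 hx
    have : Nontrivial O := ⟨⟨_, _, h1⟩⟩
    exact Finite.one_lt_card
  · intro i
    obtain ⟨g, hg, h⟩ := (e.symm i).2
    beta_reduce
    rw [h]; exact (orb2_min hI (hA hg)).ne_bot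
  · intro i j hij x hx y hy
    obtain ⟨g, hg, h⟩ := (e.symm i).2
    obtain ⟨g', hg', h'⟩ := (e.symm j).2
    have hne : ((e.symm i : O) : Submodule F (Matrix (Fin n) (Fin n) F)) ≠ (e.symm j : O) := by
      intro hh
      exact hij (e.symm.injective (Subtype.ext hh))
    refine orb2_mul_zero (A := A) ?_ ?_ hne x hx y hy
    · rw [h]; exact orb2_min hI (hA hg)
    · rw [h']; exact orb2_min hI (hA hg')
  · intro g hg
    let π : Equiv.Perm O :=
      { toFun := fun S => ⟨orb2C g S.1, by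
          obtain ⟨h, hh, hS⟩ := S.2
          exact ⟨g * h, G.mul_mem hg hh, by rw [hS, orb2C_mul]⟩⟩
        invFun := fun S => ⟨orb2C g⁻¹ S.1, by
          obtain ⟨h, hh, hS⟩ := S.2
          exact ⟨g⁻¹ * h, G.mul_mem (G.inv_mem hg) hh, by rw [hS, orb2C_mul]⟩⟩
        left_inv := fun S => Subtype.ext (by
          change orb2C g⁻¹ (orb2C g S.1) = S.1
          rw [← orb2C_mul, inv_mul_cancel, orb2C_one])
        right_inv := fun S => Subtype.ext (by
          change orb2C g (orb2C g⁻¹ S.1) = S.1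
          rw [← orb2C_mul, mul_inv_cancel, orb2C_one]) }
    refine ⟨e.symm.trans (π.trans e), ?_⟩
    intro i x
    simp only [Equiv.trans_apply, Equiv.symm_apply_apply]
    exact orb2_mem'.symm
  · intro i j
    obtain ⟨g, hg, h⟩ := (e.symm i).2
    obtain ⟨g', hg', h'⟩ := (e.symm j).2
    refine ⟨g' * g⁻¹, G.mul_mem hg' (G.inv_mem hg), ?_⟩
    intro x
    beta_reduce
    rw [h, h', orb2_mem, orb2_mem, ← orb2_conj_mul, inv_mul_cancel_left]

end Cfsg.Agent.Lib.Helper5.AschC
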