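import Cfsg.Agent.Lib.Helper5.AschC.Defs
import Cfsg.Agent.Lib.Helper77.Asch.AG2

/-! Ladder ASCHC (S5799 + S5838 + S5862), rung AGK. -/

set_option autoImplicit false

namespace Cfsg.Agent.Lib.Helper5.AschC

open Cfsg Cfsg.Geo Cfsg.Agent.Lib.Helper77.Asch
open scoped MatrixGroups Matrix Kronecker commutatorElement

variable {n : ℕ} {F : Type*} [Field F]

theorem agk_core {G : Type*} [Group G] [Finite G] (Z N M Mh : Subgroup G)
    (hZc : ∀ z ∈ Z, ∀ g : G, g * z = z * g)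
    (hZM : Z ≤ M) (hMleN : M ≤ N) (hMnorm : NormBy N M)
    (hMmin : ∀ M' : Subgroup G, Z ≤ M' → M' ≤ M → NormBy N M' → M' = Z ∨ M' = M)
    (hZMh : Z ≤ Mh) (hMhN : Mh ≤ N) (hMhn : NormBy N Mh) (hcard : Nat.card Mh = Nat.card M)
    (hne : Mh ≠ M) :
    ⁅M, M⁆ ≤ Subgroup.centralizer (Mh : Set G) := by
  have hD : M ⊓ Mh = Z := by
    rcases hMmin (M ⊓ Mh) (le_inf hZM hZMh) inf_le_left (ag5_normBy_inf hMnorm hMhn) with h1 | h1
    · exact h1
    · exfalso
      have hle : M ≤ Mh := inf_eq_left.1 h1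
      have heq : M = Mh := Subgroup.eq_of_le_of_card_ge hle hcard.le
      exact hne heq.symm
  have hcomm : ⁅M, Mh⁆ ≤ Z := by
    rw [← hD, Subgroup.commutator_le]
    intro a ha b hb
    rw [Subgroup.mem_inf]
    constructor
    · have h1 : b * a⁻¹ * b⁻¹ ∈ M := hMnorm b (hMhN hb) a⁻¹ (inv_mem ha)
      have h2 : ⁅a, b⁆ = a * (b * a⁻¹ * b⁻¹) := by
        rw [commutatorElement_def]; group
      rw [h2]; exact mul_mem ha h1
    · have h1 : a * b * a⁻¹ ∈ Mh := hMhn a (hMleN ha) b hb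
      rw [commutatorElement_def]
      exact mul_mem h1 (inv_mem hb)
  have hZcent : ∀ K : Subgroup G, Z ≤ Subgroup.centralizer (K : Set G) := by
    intro K z hz
    rw [Subgroup.mem_centralizer_iff]
    intro k _
    exact hZc z hz k
  have h1 : ⁅⁅M, Mh⁆, M⁆ = ⊥ := by
    rw [Subgroup.commutator_eq_bot_iff_le_centralizer]
    exact hcomm.trans (hZcent M)
  have h2 : ⁅⁅Mh, M⁆, M⁆ = ⊥ := by
    rw [Subgroup.commutator_comm Mh M]; exact h1
  have h3 : ⁅⁅M, M⁆, Mh⁆ = ⊥ := Subgroup.commutator_commutator_eq_bot_of_rotate h1 h2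
  rw [Subgroup.commutator_eq_bot_iff_le_centralizer] at h3
  exact h3

theorem agk_map_mul {G : Type*} [Group G] (K : Subgroup G) (a b : G) :
    K.map (MulAut.conj (a * b)).toMonoidHom =
      (K.map (MulAut.conj b).toMonoidHom).map (MulAut.conj a).toMonoidHom := by
  rw [Subgroup.map_map]
  congr 1
  ext x
  simp [mul_assoc]

theorem agk_map_one {G : Type*} [Group G] (K : Subgroup G) :
    K.map (MulAut.conj (1 : G)).toMonoidHom = K := by
  ext x
  constructor
  · rintro ⟨y, hy, rfl⟩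
    simpa using hy
  · intro hx
    exact ⟨x, hx, by simp⟩

theorem exists_commuting_conj {G : Type*} [Group G] [Finite G] (H Z N : Subgroup G)
    (hZc : ∀ z ∈ Z, ∀ g : G, g * z = z * g) (hm : MinOver H Z N) (hnab : ¬ ⁅N, N⁆ ≤ Z)
    (hns : ¬ ∀ M : Subgroup G, Z ≤ M → M ≤ N → NormBy N M → M = Z ∨ M = N) :
    ∃ (Q : Subgroup G) (k : ℕ) (g : Fin k → G), 2 ≤ k ∧ Q ≤ N ∧ ¬ Q ≤ Z ∧ NormBy N Q ∧
      (∀ i j, i ≠ j → ∀ x ∈ Q, ∀ y ∈ Q,
        (g i * x * (g i)⁻¹) * (g j * y * (g j)⁻¹) = (g j * y * (g j)⁻¹) * (g i * x * (g i)⁻¹)) ∧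
      (∀ x ∈ N, x ∈ (⨆ i, Q.map (MulAut.conj (g i)).toMonoidHom) ⊔ Z) ∧
      (∀ x ∈ N, ∃ q ∈ Q, ∃ c : G, (∀ y ∈ Q, c * y = y * c) ∧ x = q * c) := by
  classical
  push Not at hns
  obtain ⟨M₀, hZM₀, hM₀N, hM₀n, hne1, hne2⟩ := hns
  have hlt : Z < M₀ := lt_of_le_of_ne hZM₀ (Ne.symm hne1)
  obtain ⟨M, hZltM, hMM₀, hMnorm, hMmin⟩ := ag0_exists_min N Z M₀ hlt hM₀n
  have hMleN : M ≤ N := hMM₀.trans hM₀N
  have hQM : ⁅M, M⁆ ≤ M := ag5_commutator_le_self M
  have hQN : ⁅M, M⁆ ≤ N := hQM.trans hMleN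
  have hQZ : ¬ ⁅M, M⁆ ≤ Z := by
    intro hle
    have hsol : Group.IsSolvable M := by
      apply ag2_solvable_of_comm_derived
      intro a ha b hb
      exact hZc b (hle hb) a
    exact hZltM.not_ge (ag2_alpha H Z N hZc hm hnab M hMleN hMnorm hsol)
  have hQn : NormBy N ⁅M, M⁆ := ag5_normBy_commutator hMnorm hMnorm
  have hnotH : ¬ NormBy H M := by
    intro hH
    rcases hm.min M hZltM.le hMleN hH with h | h
    · exact hZltM.ne h.symm
    · exact hne2 (le_antisymm hM₀N (h ▸ hMM₀))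
  have hZconj : ∀ h : G, Z ≤ M.map (MulAut.conj h).toMonoidHom := by
    intro h z hz
    refine ⟨z, hZltM.le hz, ?_⟩
    simp only [MulEquiv.coe_toMonoidHom, MulAut.conj_apply]
    rw [hZc z hz h, mul_inv_cancel_right]
  have hcore : ∀ h ∈ H, M.map (MulAut.conj h).toMonoidHom ≠ M →
      ⁅M, M⁆ ≤ Subgroup.centralizer ((M.map (MulAut.conj h).toMonoidHom : Subgroup G) : Set G) :=
    fun h hh hne => agk_core Z N M _ hZc hZltM.le hMleN hMnorm hMmin (hZconj h)
      (ag2_conj_le hm.norm hMleN hh) (ag2_conj_normBy hm.norm hMnorm hh)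
      (Subgroup.card_map_of_injective (MulAut.conj h).injective) hne
  have hQconj : ∀ h : G, (⁅M, M⁆ : Subgroup G).map (MulAut.conj h).toMonoidHom =
      ⁅M.map (MulAut.conj h).toMonoidHom, M.map (MulAut.conj h).toMonoidHom⁆ :=
    fun h => Subgroup.map_commutator _ _ _
  -- the orbit
  let O : Set (Subgroup G) := (fun h => M.map (MulAut.conj h).toMonoidHom) '' (H : Set G)
  let k := Nat.card O
  let eq : O ≃ Fin k := Finite.equivFin O
  have hch : ∀ i : Fin k, ∃ h ∈ H,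
      M.map (MulAut.conj h).toMonoidHom = ((eq.symm i : O) : Subgroup G) := fun i => (eq.symm i).2
  choose g hgH hg using hch
  have hginj : ∀ i j, M.map (MulAut.conj (g i)).toMonoidHom = M.map (MulAut.conj (g j)).toMonoidHom →
      i = j := by
    intro i j h
    rw [hg, hg] at h
    exact eq.symm.injective (Subtype.ext h)
  have hgsurj : ∀ h ∈ H, ∃ j, M.map (MulAut.conj h).toMonoidHom =
      M.map (MulAut.conj (g j)).toMonoidHom := by
    intro h hh
    refine ⟨eq ⟨_, ⟨h, hh, rfl⟩⟩, ?_⟩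
    rw [hg, Equiv.symm_apply_apply]
  have hk : 2 ≤ k := by
    by_contra hk
    have hsub : ∀ i j : Fin k, i = j := fun i j => Fin.ext (by omega)
    apply hnotH
    rw [ag5_normBy_map]
    intro h hh
    obtain ⟨j, hj⟩ := hgsurj h hh
    obtain ⟨j', hj'⟩ := hgsurj 1 H.one_mem
    rw [hj, hsub j j', ← hj', agk_map_one]
  have hS : ∀ x ∈ N, x ∈ (⨆ i, (⁅M, M⁆ : Subgroup G).map (MulAut.conj (g i)).toMonoidHom) ⊔ Z := by
    set S := (⨆ i, (⁅M, M⁆ : Subgroup G).map (MulAut.conj (g i)).toMonoidHom) ⊔ Z with hSdef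
    have hSN : S ≤ N := sup_le (iSup_le fun i => ag2_conj_le hm.norm hQN (hgH i)) hm.lt.le
    have hSnorm : NormBy H S := by
      rw [ag5_normBy_map]
      intro h hh
      rw [hSdef, Subgroup.map_sup, Subgroup.map_iSup]
      apply sup_le
      · apply iSup_le
        intro i
        rw [← agk_map_mul]
        obtain ⟨j, hj⟩ := hgsurj (h * g i) (mul_mem hh (hgH i))
        rw [hQconj, hj, ← hQconj]
        exact le_sup_of_le_left
          (le_iSup (fun i => (⁅M, M⁆ : Subgroup G).map (MulAut.conj (g i)).toMonoidHom) j)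
      · exact ((ag5_normBy_map H Z).1 (ag5_normBy_central H Z hZc) h hh).trans le_sup_right
    rcases hm.min S le_sup_right hSN hSnorm with h | h
    · exfalso
      apply hQZ
      intro x hx
      let i0 : Fin k := ⟨0, by omega⟩
      have h1 : g i0 * x * (g i0)⁻¹ ∈ S := by
        apply Subgroup.mem_sup_left
        apply Subgroup.mem_iSup_of_mem i0
        exact ⟨x, hx, rfl⟩
      rw [h] at h1
      have h2 := hZc _ h1 (g i0)⁻¹
      have h3 : x = g i0 * x * (g i0)⁻¹ := by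
        calc x = (g i0)⁻¹ * (g i0 * x * (g i0)⁻¹) * g i0 := by group
          _ = g i0 * x * (g i0)⁻¹ * (g i0)⁻¹ * g i0 := by rw [h2]
          _ = _ := by group
      rw [h3]; exact h1
    · intro x hx
      rw [h]; exact hx
  refine ⟨⁅M, M⁆, k, g, hk, hQN, hQZ, hQn, ?_, hS, ?_⟩
  · intro i j hij x hx y hy
    have hh : (g i)⁻¹ * g j ∈ H := mul_mem (inv_mem (hgH i)) (hgH j)
    have hne : M.map (MulAut.conj ((g i)⁻¹ * g j)).toMonoidHom ≠ M := by
      intro h
      apply hij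
      apply hginj
      have h1 : g j = g i * ((g i)⁻¹ * g j) := by group
      rw [h1, agk_map_mul, h]
    have h1 := hcore _ hh hne hx
    rw [Subgroup.mem_centralizer_iff] at h1
    have hcomm := h1 ((g i)⁻¹ * g j * y * ((g i)⁻¹ * g j)⁻¹) ⟨y, hQM hy, rfl⟩
    generalize hw : (g i)⁻¹ * g j * y * ((g i)⁻¹ * g j)⁻¹ = w at hcomm
    have e1 : g j * y * (g j)⁻¹ = g i * w * (g i)⁻¹ := by rw [← hw]; group
    rw [e1]
    calc g i * x * (g i)⁻¹ * (g i * w * (g i)⁻¹) = g i * (x * w) * (g i)⁻¹ := by group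
      _ = g i * (w * x) * (g i)⁻¹ := by rw [hcomm]
      _ = _ := by group
  · intro x hx
    have hle : (⨆ i, (⁅M, M⁆ : Subgroup G).map (MulAut.conj (g i)).toMonoidHom) ⊔ Z ≤
        ⁅M, M⁆ ⊔ Subgroup.centralizer ((⁅M, M⁆ : Subgroup G) : Set G) := by
      apply sup_le
      · apply iSup_le
        intro i
        by_cases hi : M.map (MulAut.conj (g i)).toMonoidHom = M
        · rw [hQconj, hi]; exact le_sup_left
        · apply le_sup_of_le_right
          intro w hw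
          rw [Subgroup.mem_centralizer_iff]
          intro q hq
          have h1 := hcore _ (hgH i) hi hq
          rw [Subgroup.mem_centralizer_iff] at h1
          exact (h1 w (Subgroup.map_mono hQM hw)).symm
      · apply le_sup_of_le_right
        intro z hz
        rw [Subgroup.mem_centralizer_iff]
        intro q _
        exact hZc z hz q
    obtain ⟨q, hq, c, hc, hqc⟩ := (ag2_mem_sup (Subgroup.centralizer_le_normalizer _)).1 (hle (hS x hx))
    refine ⟨q, hq, c, ?_, hqc.symm⟩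
    intro y hy
    exact ((Subgroup.mem_centralizer_iff.1 hc) y hy).symm

end Cfsg.Agent.Lib.Helper5.AschC
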