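import Cfsg.Agent.Lib.Helper5.AschC.Defs
import Cfsg.Agent.Lib.Helper77.Asch.AG5

/-! Ladder ASCHC (S5799 + S5838 + S5862), rung RGRP. -/

set_option autoImplicit false

namespace Cfsg.Agent.Lib.Helper5.AschC

open Cfsg Cfsg.Geo Cfsg.Agent.Lib.Helper77.Asch
open scoped MatrixGroups Matrix Kronecker commutatorElement

variable {n : ℕ} {F : Type*} [Field F]

theorem rgrp_mul_pow {G : Type*} [Group G] (Z N : Subgroup G)
    (hZc : ∀ z ∈ Z, ∀ g : G, g * z = z * g) (hab : ⁅N, N⁆ ≤ Z) (x y : G) (hx : x ∈ N) (hy : y ∈ N)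
    (m : ℕ) : ∃ z ∈ Z, (x * y) ^ m = x ^ m * y ^ m * z := by
  induction m with
  | zero => exact ⟨1, Z.one_mem, by simp⟩
  | succ m ih =>
    obtain ⟨z, hz, hm⟩ := ih
    set c : G := ⁅(y ^ m)⁻¹, x⁻¹⁆ with hc
    have hcZ : c ∈ Z :=
      hab (Subgroup.commutator_mem_commutator (N.inv_mem (N.pow_mem hy m)) (N.inv_mem hx))
    refine ⟨c * z, Z.mul_mem hcZ hz, ?_⟩
    have e1 : y ^ m * x = x * y ^ m * c := by
      rw [hc, commutatorElement_def]; group
    have hzc := hZc z hz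
    have hcc := hZc c hcZ
    calc (x * y) ^ (m + 1) = (x * y) ^ m * (x * y) := pow_succ _ _
      _ = x ^ m * y ^ m * z * (x * y) := by rw [hm]
      _ = x ^ m * y ^ m * ((x * y) * z) := by rw [mul_assoc (x ^ m * y ^ m), ← hzc (x * y)]
      _ = x ^ m * (y ^ m * x) * y * z := by group
      _ = x ^ m * (x * y ^ m * c) * y * z := by rw [e1]
      _ = x ^ m * x * y ^ m * (c * y) * z := by group
      _ = x ^ m * x * y ^ m * (y * c) * z := by rw [hcc y]
      _ = x ^ (m + 1) * y ^ (m + 1) * (c * z) := by rw [pow_succ, pow_succ]; group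

theorem relIndex_prime_pow {G : Type*} [Group G] [Finite G] (H Z N : Subgroup G)
    (hZc : ∀ z ∈ Z, ∀ g : G, g * z = z * g) (hm : MinOver H Z N) (hab : ⁅N, N⁆ ≤ Z) :
    ∃ r k : ℕ, r.Prime ∧ Z.relIndex N = r ^ k := by
  haveI hZn : Z.Normal := ag5_normal_of_central Z hZc
  haveI : (Z.subgroupOf N).Normal := hZn.subgroupOf N
  have hcard : Nat.card (N ⧸ Z.subgroupOf N) = Z.relIndex N := rfl
  have hne1 : Z.relIndex N ≠ 1 := by
    intro h
    rw [Subgroup.relIndex_eq_one] at h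
    exact absurd h (not_le_of_gt hm.lt)
  set r := (Z.relIndex N).minFac with hr
  have hrp : r.Prime := Nat.minFac_prime hne1
  haveI : Fact r.Prime := ⟨hrp⟩
  have hrd : r ∣ Nat.card (N ⧸ Z.subgroupOf N) := by rw [hcard]; exact Nat.minFac_dvd _
  obtain ⟨abar, habar⟩ := exists_prime_orderOf_dvd_card' (G := N ⧸ Z.subgroupOf N) r hrd
  obtain ⟨a, rfl⟩ := QuotientGroup.mk'_surjective _ abar
  have haZ : (a : G) ∉ Z := by
    intro h
    have : (QuotientGroup.mk' (Z.subgroupOf N)) a = 1 := by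
      rw [QuotientGroup.mk'_apply, QuotientGroup.eq_one_iff]
      exact h
    rw [this, orderOf_one] at habar
    exact hrp.one_lt.ne habar
  have harZ : (a : G) ^ r ∈ Z := by
    have h1 : ((QuotientGroup.mk' (Z.subgroupOf N)) a) ^ r = 1 := by
      rw [← habar]; exact pow_orderOf_eq_one _
    rw [← map_pow, QuotientGroup.mk'_apply, QuotientGroup.eq_one_iff] at h1
    exact h1
  let M : Subgroup G :=
    { carrier := {x | x ∈ N ∧ ∃ k : ℕ, x ^ r ^ k ∈ Z}
      one_mem' := ⟨N.one_mem, 0, by simp [Z.one_mem]⟩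
      mul_mem' := by
        rintro x y ⟨hx, i, hi⟩ ⟨hy, j, hj⟩
        refine ⟨N.mul_mem hx hy, i + j, ?_⟩
        obtain ⟨z, hz, he⟩ := rgrp_mul_pow Z N hZc hab x y hx hy (r ^ (i + j))
        rw [he]
        refine Z.mul_mem (Z.mul_mem ?_ ?_) hz
        · rw [pow_add, pow_mul]; exact Z.pow_mem hi _
        · rw [pow_add, mul_comm, pow_mul]; exact Z.pow_mem hj _
      inv_mem' := by
        rintro x ⟨hx, i, hi⟩
        exact ⟨N.inv_mem hx, i, by rw [inv_pow]; exact Z.inv_mem hi⟩ }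
  have hMmem : ∀ x, x ∈ M ↔ x ∈ N ∧ ∃ k : ℕ, x ^ r ^ k ∈ Z := fun x => Iff.rfl
  have hZM : Z ≤ M := fun z hz => ⟨hm.lt.le hz, 0, by simpa using hz⟩
  have hMN : M ≤ N := fun x hx => hx.1
  have hMH : NormBy H M := by
    rintro h hh x ⟨hx, i, hi⟩
    refine ⟨hm.norm h hh x hx, i, ?_⟩
    rw [conj_pow]
    exact hZn.conj_mem _ hi h
  have hMeq : M = N := by
    rcases hm.min M hZM hMN hMH with h | h
    · exfalso
      apply haZ
      rw [← h]
      exact ⟨a.2, 1, by rw [pow_one]; exact harZ⟩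
    · exact h
  have hp : IsPGroup r (N ⧸ Z.subgroupOf N) := by
    intro xbar
    obtain ⟨x, rfl⟩ := QuotientGroup.mk'_surjective _ xbar
    have hx : (x : G) ∈ M := by rw [hMeq]; exact x.2
    obtain ⟨_, i, hi⟩ := hx
    refine ⟨i, ?_⟩
    rw [← map_pow, QuotientGroup.mk'_apply, QuotientGroup.eq_one_iff]
    exact hi
  obtain ⟨k, hk⟩ := (IsPGroup.iff_card).mp hp
  exact ⟨r, k, hrp, by rw [← hcard, hk]⟩

end Cfsg.Agent.Lib.Helper5.AschC
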