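import Cfsg.Agent.Lib.Helper5.AschC.Main
import Cfsg.Agent.Lib.Helper5.AschC.SWAP
import Cfsg.Agent.Lib.Helper5.AschC.PRK
import Cfsg.Agent.Lib.Helper5.AschC.PRS
import Cfsg.Agent.Lib.Helper5.AschC.PRT
import Cfsg.Agent.Lib.Helper5.AschC.TQ2
import Cfsg.Agent.Lib.Helper5.AschC.DQ2
import Cfsg.Agent.Lib.Helper5.AschC.DIM
import Cfsg.Agent.Lib.Helper77.Asch.DEG
import Cfsg.Agent.Lib.Helper77.Asch.PR1
import Cfsg.Agent.Lib.Helper77.Asch.PR2
import Cfsg.Agent.Lib.Helper77.Asch.PR4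
import Cfsg.Agent.Lib.Helper77.Asch.PR6
import Cfsg.Agent.Lib.Helper77.Asch.PR7
import Cfsg.Agent.Lib.Helper77.Asch.SQ2
import Cfsg.Agent.Lib.Helper77.Asch.SQ3
import Cfsg.Agent.Lib.Helper77.Asch.SQ4

/-! Ladder ASCHC: maximal subgroups of SL_n(q): normal form of the conclusion. -/

set_option autoImplicit false

namespace Cfsg.Agent.Lib.Helper5.AschC

open Cfsg Cfsg.Geo Cfsg.Agent.Lib.Helper77.Asch
open scoped MatrixGroups Matrix Kronecker

variable {n : ℕ} {F : Type*} [Field F]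

theorem eq_of_max {H X : Subgroup (GL (Fin n) F)} (hH : IsMaximalIn (specialLinear (Fin n) F) H)
    (hX : H ≤ X) (hp : ¬ specialLinear (Fin n) F ≤ X) : H = X ⊓ specialLinear (Fin n) F := by
  rcases hH.2 (X ⊓ specialLinear (Fin n) F) (le_inf hX hH.1.le) inf_le_right with h | h
  · exact h.symm
  · exact absurd (h ▸ inf_le_left) hp

theorem subfield_ne_top [Fintype F] (F₀ : Subfield F) (r : ℕ) (hr : r.Prime)
    (h : Fintype.card F = Nat.card F₀ ^ r) : F₀ ≠ ⊤ := by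
  rintro rfl
  have h1 : Nat.card (⊤ : Subfield F) = Fintype.card F := by
    rw [← Nat.card_eq_fintype_card]
    exact Nat.card_congr (Subfield.topEquiv (K := F)).toEquiv
  rw [h1] at h
  have h2 : 1 < Fintype.card F := Fintype.one_lt_card
  have h3 : Fintype.card F ^ 1 < Fintype.card F ^ r := Nat.pow_lt_pow_right h2 hr.one_lt
  rw [pow_one, ← h] at h3
  exact lt_irrefl _ h3

/-- Normal form of the list of maximal subgroups of `SL_n(q)`. -/
theorem final [Fintype F] (h3 : 3 ≤ n) (p₁ p₂ : ℕ) (hp₁ : p₁.Prime) (hp₂ : p₂.Prime) (hne : p₁ ≠ p₂)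
    (hd₁ : p₁ ∣ n) (hd₂ : p₂ ∣ n) (hpw : ∀ a k : ℕ, 2 ≤ k → n ≠ a ^ k)
    (H : Subgroup (GL (Fin n) F)) (hH : IsMaximalIn (specialLinear (Fin n) F) H) :
    (∃ W : Submodule F (Fin n → F), W ≠ ⊥ ∧ W ≠ ⊤ ∧ H = subspaceStabilizer W ⊓ specialLinear (Fin n) F) ∨
    (5 ≤ Fintype.card F ∧ ∃ D : Fin n → Submodule F (Fin n → F), IsMDecomposition 1 D ∧
      H = decompositionStabilizer D ⊓ specialLinear (Fin n) F) ∨
    (∃ (t m : ℕ) (D : Fin t → Submodule F (Fin n → F)), 2 ≤ m ∧ 2 ≤ t ∧ t * m = n ∧ (m = 2 → 3 ≤ Fintype.card F) ∧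
      IsMDecomposition m D ∧ H = decompositionStabilizer D ⊓ specialLinear (Fin n) F) ∨
    (∃ (r : ℕ) (K : Subalgebra F (Matrix (Fin n) (Fin n) F)), r.Prime ∧ r ∣ n ∧ IsFieldSubalgebra r K ∧
      H = subalgebraNormalizer K ⊓ specialLinear (Fin n) F) ∨
    (∃ (a b : ℕ) (e : Fin n ≃ Fin a × Fin b) (P : GL (Fin n) F), 2 ≤ a ∧ a ≤ b ∧ a * b = n ∧
      (a = 2 → 3 ≤ Fintype.card F) ∧ H = tensorProductSubgroup a b e P ⊓ specialLinear (Fin n) F) ∨
    (∃ (F₀ : Subfield F) (r : ℕ) (P : GL (Fin n) F), r.Prime ∧ Fintype.card F = Nat.card F₀ ^ r ∧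
      H = subfieldSubgroup F₀ P ⊓ specialLinear (Fin n) F) ∨
    (Odd (Fintype.card F) ∧ ∃ Q : (Fin n → F) → F, IsNondegenerateQuadraticForm Q ∧
      H = quadSimilarityGroup Q ⊓ specialLinear (Fin n) F) ∨
    (∃ f : (Fin n → F) → (Fin n → F) → F, IsSymplecticForm f ∧
      H = similarityGroup f ⊓ specialLinear (Fin n) F) ∨
    (∃ (σ : F ≃+* F) (f : (Fin n → F) → (Fin n → F) → F), IsUnitaryForm σ f ∧
      H = similarityGroup f ⊓ specialLinear (Fin n) F) ∨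
    InLinearResidualClass H := by
  classical
  have hn : 0 < n := by omega
  have hq : 1 < Fintype.card F := Fintype.one_lt_card
  -- the individual conclusions
  have c1 : ∀ W : Submodule F (Fin n → F), W ≠ ⊥ → W ≠ ⊤ → H ≤ subspaceStabilizer W →
      ∃ W : Submodule F (Fin n → F), W ≠ ⊥ ∧ W ≠ ⊤ ∧ H = subspaceStabilizer W ⊓ specialLinear (Fin n) F :=
    fun W h0 h1 h => ⟨W, h0, h1, eq_of_max hH h (not_le_subspace W h0 h1)⟩
  have c3 : ∀ (r : ℕ) (K : Subalgebra F (Matrix (Fin n) (Fin n) F)), r.Prime → IsFieldSubalgebra r K →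
      H ≤ subalgebraNormalizer K →
      ∃ (r : ℕ) (K : Subalgebra F (Matrix (Fin n) (Fin n) F)), r.Prime ∧ r ∣ n ∧ IsFieldSubalgebra r K ∧
        H = subalgebraNormalizer K ⊓ specialLinear (Fin n) F :=
    fun r K hr hK h => ⟨r, K, hr, deg_dvd hn r K hK, hK,
      eq_of_max hH h (not_le_fieldNormalizer' h3 r hr.one_lt K hK)⟩
  have c8q : ∀ Q : (Fin n → F) → F, IsNondegenerateQuadraticForm Q → H ≤ quadSimilarityGroup Q →
      ∃ Q : (Fin n → F) → F, IsNondegenerateQuadraticForm Q ∧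
        H = quadSimilarityGroup Q ⊓ specialLinear (Fin n) F :=
    fun Q hQ h => ⟨Q, hQ, eq_of_max hH h (not_le_quadSim h3 Q hQ)⟩
  have c8s : ∀ f : (Fin n → F) → (Fin n → F) → F, IsSymplecticForm f → H ≤ similarityGroup f →
      ∃ f : (Fin n → F) → (Fin n → F) → F, IsSymplecticForm f ∧
        H = similarityGroup f ⊓ specialLinear (Fin n) F :=
    fun f hf h => ⟨f, hf, eq_of_max hH h (not_le_sympSim h3 f hf)⟩
  have c8u : ∀ (σ : F ≃+* F) (f : (Fin n → F) → (Fin n → F) → F), IsUnitaryForm σ f → H ≤ similarityGroup f →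
      ∃ (σ : F ≃+* F) (f : (Fin n → F) → (Fin n → F) → F), IsUnitaryForm σ f ∧
        H = similarityGroup f ⊓ specialLinear (Fin n) F :=
    fun σ f hf h => ⟨σ, f, hf, eq_of_max hH h (not_le_unitarySim h3 σ f hf)⟩
  rcases main h3 p₁ p₂ hp₁ hp₂ hne hd₁ hd₂ hpw H with hgeo | hres
  swap
  · exact Or.inr (Or.inr (Or.inr (Or.inr (Or.inr (Or.inr (Or.inr (Or.inr (Or.inr hres))))))))
  rcases hgeo with ⟨W, h0, h1, h⟩ | ⟨t, m, D, hD, h⟩ | ⟨r, K, hr, hK, h⟩ | ⟨a, b, e, P, ha, hb, h⟩ |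
    ⟨F₀, r, P, hr, hc, h⟩ | ⟨hodd, Q, hQ, h⟩ | ⟨f, hf, h⟩ | ⟨σ, f, hf, h⟩
  · exact Or.inl (c1 W h0 h1 h)
  · have htm := decomp_dim D hD
    have hm0 := hD.pos
    by_cases hm1 : m = 1
    · subst hm1
      have htn : t = n := by omega
      subst htn
      by_cases h5 : 5 ≤ Fintype.card F
      · exact Or.inr (Or.inl ⟨h5, D, hD, eq_of_max hH h (not_le_decomp D hD)⟩)
      · have hcases : Fintype.card F = 2 ∨ Fintype.card F = 3 ∨ Fintype.card F = 4 := by omega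
        rcases hcases with h2 | h2 | h2
        · obtain ⟨W, h0, h1, hW⟩ := decomp_two (by omega) h2 D hD
          exact Or.inl (c1 W h0 h1 (h.trans hW))
        · obtain ⟨Q, hQ, hW⟩ := decomp_three h2 D hD
          exact Or.inr (Or.inr (Or.inr (Or.inr (Or.inr (Or.inr (Or.inl
            ⟨by rw [h2]; decide, c8q Q hQ (h.trans hW)⟩))))))
        · obtain ⟨σ, f, hf, hW⟩ := decomp_four h2 D hD
          exact Or.inr (Or.inr (Or.inr (Or.inr (Or.inr (Or.inr (Or.inr (Or.inr (Or.inl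
            (c8u σ f hf (h.trans hW))))))))))
    · by_cases hm2 : m = 2 ∧ Fintype.card F < 3
      · obtain ⟨rfl, hlt⟩ := hm2
        obtain ⟨f, hf, hW⟩ := decomp_two_two (by omega) D hD
        exact Or.inr (Or.inr (Or.inr (Or.inr (Or.inr (Or.inr (Or.inr (Or.inl (c8s f hf (h.trans hW)))))))))
      · exact Or.inr (Or.inr (Or.inl ⟨t, m, D, by omega, hD.two_le, htm, fun h2 => by
          by_contra hlt
          exact hm2 ⟨h2, by omega⟩, hD, eq_of_max hH h (not_le_decomp D hD)⟩))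
  · exact Or.inr (Or.inr (Or.inr (Or.inl (c3 r K hr hK h))))
  · -- tensor
    have key : ∀ (a b : ℕ) (e : Fin n ≃ Fin a × Fin b) (P : GL (Fin n) F), 2 ≤ a → a ≤ b →
        H ≤ tensorProductSubgroup a b e P →
        (∃ (r : ℕ) (K : Subalgebra F (Matrix (Fin n) (Fin n) F)), r.Prime ∧ r ∣ n ∧ IsFieldSubalgebra r K ∧
          H = subalgebraNormalizer K ⊓ specialLinear (Fin n) F) ∨
        (∃ (a b : ℕ) (e : Fin n ≃ Fin a × Fin b) (P : GL (Fin n) F), 2 ≤ a ∧ a ≤ b ∧ a * b = n ∧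
          (a = 2 → 3 ≤ Fintype.card F) ∧ H = tensorProductSubgroup a b e P ⊓ specialLinear (Fin n) F) := by
      intro a b e P ha hab h
      have hcard : a * b = n := by
        have := Fintype.card_congr e
        simpa using this.symm
      by_cases h2 : a = 2 ∧ Fintype.card F < 3
      · obtain ⟨rfl, hlt⟩ := h2
        obtain ⟨K, hK, hW⟩ := tensor_two hn (by omega) e P
        exact Or.inl (c3 2 K Nat.prime_two hK (h.trans hW))
      · exact Or.inr ⟨a, b, e, P, ha, hab, hcard, fun h2' => by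
          by_contra hlt
          exact h2 ⟨h2', by omega⟩, eq_of_max hH h (not_le_tensor ha (by omega) e P)⟩
    have : (∃ (r : ℕ) (K : Subalgebra F (Matrix (Fin n) (Fin n) F)), r.Prime ∧ r ∣ n ∧ IsFieldSubalgebra r K ∧
          H = subalgebraNormalizer K ⊓ specialLinear (Fin n) F) ∨
        (∃ (a b : ℕ) (e : Fin n ≃ Fin a × Fin b) (P : GL (Fin n) F), 2 ≤ a ∧ a ≤ b ∧ a * b = n ∧
          (a = 2 → 3 ≤ Fintype.card F) ∧ H = tensorProductSubgroup a b e P ⊓ specialLinear (Fin n) F) := by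
      by_cases hab : a ≤ b
      · exact key a b e P ha hab h
      · exact key b a _ P hb (by omega) (h.trans (tensor_swap e P))
    rcases this with h' | h'
    · exact Or.inr (Or.inr (Or.inr (Or.inl h')))
    · exact Or.inr (Or.inr (Or.inr (Or.inr (Or.inl h'))))
  · exact Or.inr (Or.inr (Or.inr (Or.inr (Or.inr (Or.inl ⟨F₀, r, P, hr, hc,
      eq_of_max hH h (not_le_subfield (by omega) F₀ (subfield_ne_top F₀ r hr hc) P)⟩)))))
  · exact Or.inr (Or.inr (Or.inr (Or.inr (Or.inr (Or.inr (Or.inl ⟨hodd, c8q Q hQ h⟩))))))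
  · exact Or.inr (Or.inr (Or.inr (Or.inr (Or.inr (Or.inr (Or.inr (Or.inl (c8s f hf h))))))))
  · exact Or.inr (Or.inr (Or.inr (Or.inr (Or.inr (Or.inr (Or.inr (Or.inr (Or.inl (c8u σ f hf h)))))))))

theorem not_pow (n : ℕ) (hn : 2 ≤ n) (hn' : n < 16) (h : ∀ a < 4, ∀ k < 4, 2 ≤ k → n ≠ a ^ k) :
    ∀ a k : ℕ, 2 ≤ k → n ≠ a ^ k := by
  intro a k hk heq
  have ha2 : 2 ≤ a := by
    by_contra hc
    have : a = 0 ∨ a = 1 := by omega
    rcases this with rfl | rfl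
    · rw [zero_pow (by omega)] at heq; omega
    · rw [one_pow] at heq; omega
  have hk4 : k < 4 := by
    by_contra hc
    have h1 : 2 ^ 4 ≤ 2 ^ k := Nat.pow_le_pow_right (by norm_num) (by omega)
    have h2 : 2 ^ k ≤ a ^ k := Nat.pow_le_pow_left ha2 k
    omega
  have ha4 : a < 4 := by
    by_contra hc
    have h1 : 4 ^ 2 ≤ a ^ 2 := Nat.pow_le_pow_left (by omega) 2
    have h2 : a ^ 2 ≤ a ^ k := Nat.pow_le_pow_right (by omega) hk
    omega
  exact h a ha4 k hk4 hk heq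

end Cfsg.Agent.Lib.Helper5.AschC
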