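import Cfsg.Agent.Lib.Helper5.AschC.NRM
import Cfsg.Agent.Lib.Helper5.AschC.MINI
import Cfsg.Agent.Lib.Helper5.AschC.ORB1
import Cfsg.Agent.Lib.Helper5.AschC.ORB2
import Cfsg.Agent.Lib.Helper5.AschC.IDF
import Cfsg.Agent.Lib.Helper5.AschC.CENF
import Cfsg.Agent.Lib.Helper5.AschC.FLD
import Cfsg.Agent.Lib.Helper5.AschC.DENS
import Cfsg.Agent.Lib.Helper5.AschC.TENS
import Cfsg.Agent.Lib.Helper5.AschC.NTEN
import Cfsg.Agent.Lib.Helper5.AschC.EXT
import Cfsg.Agent.Lib.Helper5.AschC.AGK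
import Cfsg.Agent.Lib.Helper5.AschC.RGRP
import Cfsg.Agent.Lib.Helper5.AschC.IND
import Cfsg.Agent.Lib.Helper5.AschC.PW
import Cfsg.Agent.Lib.Helper5.AschC.QFAC
import Cfsg.Agent.Lib.Helper5.AschC.QGEN
import Cfsg.Agent.Lib.Helper5.AschC.FORMS
import Cfsg.Agent.Lib.Helper77.Asch.RED
import Cfsg.Agent.Lib.Helper77.Asch.SUBF
import Cfsg.Agent.Lib.Helper77.Asch.SUBF2
import Cfsg.Agent.Lib.Helper77.Asch.FORMQ
import Cfsg.Agent.Lib.Helper77.Asch.FORMU
import Cfsg.Agent.Lib.Helper77.Asch.AG0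
import Cfsg.Agent.Lib.Helper77.Asch.AG3
import Cfsg.Agent.Lib.Helper77.Asch.AG4
import Cfsg.Agent.Lib.Helper77.Asch.AG5
import Cfsg.Agent.Lib.Helper77.Asch.ABSR

/-! Ladder ASCHC: Aschbacher's theorem for subgroups of GL_n(q), n neither a prime power nor a perfect power. -/

set_option autoImplicit false

namespace Cfsg.Agent.Lib.Helper5.AschC

open Cfsg Cfsg.Geo Cfsg.Agent.Lib.Helper77.Asch
open scoped MatrixGroups Matrix Kronecker

variable {n : ℕ} {F : Type*} [Field F]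

/-- The Clifford-type dichotomy. -/
theorem dich [Fintype F] (hn : 0 < n) (G N : Subgroup (GL (Fin n) F)) (hnorm : NormBy G N)
    (hG : ActsIrreducibly (matrixSet G)) :
    (∃ (t m : ℕ) (D : Fin t → Submodule F (Fin n → F)), IsMDecomposition m D ∧ G ≤ decompositionStabilizer D) ∨
    (∃ (r : ℕ) (K : Subalgebra F (Matrix (Fin n) (Fin n) F)), r.Prime ∧ IsFieldSubalgebra r K ∧
      G ≤ subalgebraNormalizer K) ∨
    (∃ (a b : ℕ) (e : Fin n ≃ Fin a × Fin b) (P : GL (Fin n) F), 2 ≤ a ∧ 2 ≤ b ∧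
      G ≤ tensorProductSubgroup a b e P) ∨
    N ≤ scalars (Fin n) F ∨ ActsAbsolutelyIrreducibly (matrixSet N) := by
  classical
  have hA := spanAlg_norm G N hnorm
  obtain ⟨I, hI⟩ := exists_minIdl hn (spanAlg N)
  by_cases hinv : ∀ g ∈ G, ∀ x ∈ I, conjA g x ∈ I
  · obtain ⟨U, hU⟩ := ideal_faith hn G hG _ hA I hI hinv
    have hK := cen_field _ U hU
    by_cases hd : Module.finrank F (cen (spanAlg N)) = 1
    · obtain ⟨a, φ, ha, hφ⟩ := dens _ U hU hd
      obtain ⟨b, e, P, hP⟩ := tens ha φ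
      have hGt : G ≤ tensorProductSubgroup a b e P := by
        refine le_trans ?_ (ntens hn e P φ hP)
        rw [hφ]; exact hA
      have hab : a * b = n := by
        have := Fintype.card_congr e
        simpa using this.symm
      by_cases ha1 : a = 1
      · subst ha1
        exact Or.inr (Or.inr (Or.inr (Or.inl (le_scalars_of_range hn φ N hφ))))
      by_cases hb1 : b = 1
      · have han : a = n := by subst hb1; simpa using hab
        subst han
        exact Or.inr (Or.inr (Or.inr (Or.inr (absIrr_of_range hn φ N hφ))))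
      · have hb0 : b ≠ 0 := by rintro rfl; simp at hab; omega
        exact Or.inr (Or.inr (Or.inl ⟨a, b, e, P, by omega, by omega, hGt⟩))
    · have hnt : Nontrivial (Matrix (Fin n) (Fin n) F) := by
        haveI : Nonempty (Fin n) := ⟨⟨0, hn⟩⟩
        infer_instance
      have hpos : 0 < Module.finrank F (cen (spanAlg N)) := Module.finrank_pos
      obtain ⟨r, K', hr, hK', hle⟩ := exists_prime_subfieldAlg _ (by omega) _ hK
      exact Or.inr (Or.inl ⟨r, K', hr, hK', (hA.trans (cen_norm _)).trans hle⟩)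
  · obtain ⟨t, J, ht, hne, hmul, hperm, htrans⟩ := orbit_family G _ hA I hI hinv
    obtain ⟨m, D, hD, hGD⟩ := decomp_of_family hn G hG J ht hne hmul hperm htrans
    exact Or.inl ⟨t, m, D, hD, hGD⟩

theorem scalars_central (z : GL (Fin n) F) (hz : z ∈ scalars (Fin n) F) (g : GL (Fin n) F) : g * z = z * g := by
  obtain ⟨c, hc⟩ := (mem_scalars_iff z).1 hz
  apply Units.ext
  rw [Units.val_mul, Units.val_mul, hc]
  simp

theorem mem_scalars_of_comm (hn : 0 < n) (P : Subgroup (GL (Fin n) F))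
    (hP : ActsAbsolutelyIrreducibly (matrixSet P)) (h : GL (Fin n) F) (hh : ∀ x ∈ P, h * x = x * h) :
    h ∈ scalars (Fin n) F := by
  obtain ⟨c, hc⟩ := hP.2 (h : Matrix (Fin n) (Fin n) F) (by
    rintro s ⟨x, hx, rfl⟩
    have := congrArg (fun u : GL (Fin n) F => (u : Matrix (Fin n) (Fin n) F)) (hh x hx)
    simpa using this)
  have hc0 : c ≠ 0 := by
    rintro rfl
    have h1 : (h : Matrix (Fin n) (Fin n) F) = 0 := by simpa using hc
    have h2 : (h : Matrix (Fin n) (Fin n) F) * ((h⁻¹ : GL (Fin n) F) : Matrix (Fin n) (Fin n) F) = 1 := by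
      rw [← Units.val_mul, mul_inv_cancel, Units.val_one]
    rw [h1, zero_mul] at h2
    haveI : Nonempty (Fin n) := ⟨⟨0, hn⟩⟩
    exact zero_ne_one h2
  exact (mem_scalars_iff h).2 ⟨Units.mk0 c hc0, by simpa using hc⟩

theorem scalars_not_irr (hn : 2 ≤ n) : ¬ ActsIrreducibly (matrixSet (scalars (Fin n) F)) := by
  intro h
  let v : Fin n → F := Pi.single ⟨0, by omega⟩ 1
  have hv : v ≠ 0 := by
    intro h0
    have := congrFun h0 ⟨0, by omega⟩
    simp [v] at this
  rcases h (Submodule.span F {v}) (by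
    rintro s ⟨z, hz, rfl⟩
    obtain ⟨c, hc⟩ := (mem_scalars_iff z).1 hz
    rw [Submodule.map_le_iff_le_comap]
    intro w hw
    simp only [Submodule.mem_comap, Matrix.toLin'_apply, hc, Matrix.smul_mulVec, Matrix.one_mulVec]
    exact Submodule.smul_mem _ _ hw) with h1 | h1
  · exact hv ((Submodule.span_singleton_eq_bot).1 h1)
  · have h2 : Module.finrank F (Submodule.span F {v}) = n := by
      rw [h1, finrank_top]; simp
    rw [finrank_span_singleton hv] at h2
    omega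

theorem odd_card_of_two_ne_zero [Fintype F] (h : (2 : F) ≠ 0) : Odd (Fintype.card F) := by
  rw [Nat.odd_iff]
  apply FiniteField.odd_card_of_char_ne_two
  intro h2
  haveI : CharP F 2 := by rw [← h2]; exact ringChar.charP F
  exact h (by exact_mod_cast CharP.cast_eq_zero F 2)

/-- **Aschbacher's theorem** for `GL_n(q)`, `n` divisible by two primes and not a perfect power. -/
theorem main [Fintype F] (h3 : 3 ≤ n) (p₁ p₂ : ℕ) (hp₁ : p₁.Prime) (hp₂ : p₂.Prime) (hne : p₁ ≠ p₂)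
    (hd₁ : p₁ ∣ n) (hd₂ : p₂ ∣ n) (hpw : ∀ a k : ℕ, 2 ≤ k → n ≠ a ^ k)
    (H : Subgroup (GL (Fin n) F)) : InGeoC H ∨ InLinearResidualClass H := by
  classical
  have hn : 0 < n := by omega
  set Z := scalars (Fin n) F with hZdef
  set G := H ⊔ Z with hGdef
  have hHG : H ≤ G := le_sup_left
  have hZG : Z ≤ G := le_sup_right
  have hZc : ∀ z ∈ Z, ∀ g : GL (Fin n) F, g * z = z * g := fun z hz g => scalars_central z hz g
  by_cases hirr : ActsIrreducibly (matrixSet G)
  swap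
  · obtain ⟨W, h0, h1, hW⟩ := red G hirr
    exact Or.inl (Or.inl ⟨W, h0, h1, hHG.trans hW⟩)
  -- the dichotomy for G-invariant subgroups
  have key : ∀ N : Subgroup (GL (Fin n) F), NormBy G N →
      InGeoC H ∨ N ≤ Z ∨ ActsAbsolutelyIrreducibly (matrixSet N) := by
    intro N hN
    rcases dich hn G N hN hirr with ⟨t, m, D, hD, h⟩ | ⟨r, K, hr, hK, h⟩ | ⟨a, b, e, P, ha, hb, h⟩ | h | h
    · exact Or.inl (Or.inr (Or.inl ⟨t, m, D, hD, hHG.trans h⟩))
    · exact Or.inl (Or.inr (Or.inr (Or.inl ⟨r, K, hr, hK, hHG.trans h⟩)))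
    · exact Or.inl (Or.inr (Or.inr (Or.inr (Or.inl ⟨a, b, e, P, ha, hb, hHG.trans h⟩))))
    · exact Or.inr (Or.inl h)
    · exact Or.inr (Or.inr h)
  have hZlt : Z < G := by
    refine lt_of_le_of_ne hZG ?_
    intro h
    rw [← h] at hirr
    exact scalars_not_irr (by omega) hirr
  obtain ⟨N, hm⟩ := exists_minOver G Z hZlt
  rcases key N hm.norm with hgeo | hNZ | hNabs
  · exact Or.inl hgeo
  · exact absurd hNZ (not_le_of_gt hm.lt)
  by_cases hab : ⁅N, N⁆ ≤ Z
  · -- symplectic type: impossible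
    exfalso
    obtain ⟨r, k, hr, hrk⟩ := relIndex_prime_pow G Z N hZc hm hab
    have hsq := relIndex_eq_sq hn N hm.lt.le hab hNabs
    rw [hrk] at hsq
    have e1 : p₁ = r := by
      have : p₁ ∣ r ^ k := by rw [hsq]; exact Dvd.dvd.pow hd₁ (by norm_num)
      exact (Nat.prime_dvd_prime_iff_eq hp₁ hr).1 (hp₁.dvd_of_dvd_pow this)
    have e2 : p₂ = r := by
      have : p₂ ∣ r ^ k := by rw [hsq]; exact Dvd.dvd.pow hd₂ (by norm_num)
      exact (Nat.prime_dvd_prime_iff_eq hp₂ hr).1 (hp₂.dvd_of_dvd_pow this)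
    exact hne (e1.trans e2.symm)
  by_cases hs : ∀ M : Subgroup (GL (Fin n) F), Z ≤ M → M ≤ N → NormBy N M → M = Z ∨ M = N
  swap
  · -- tensor induced: impossible
    exfalso
    obtain ⟨Q, k, g, hk, hQN, hQZ, hQnorm, hcomm, hgen, hfac⟩ := exists_commuting_conj G Z N hZc hm hab hs
    have hA := spanAlg_norm N Q hQnorm
    obtain ⟨I, hI⟩ := exists_minIdl hn (spanAlg Q)
    obtain ⟨U, hU⟩ := ideal_faith hn N hNabs.1 _ hA I hI (idl_inv_of_fac Q N hfac I hI.idl)
    obtain ⟨a, φ, ha, hφ⟩ := dens _ U hU (cen_finrank_of_fac hn Q N hfac hNabs)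
    exact hpw a k hk (pw hn ha (fun i => (conjA (g i)).comp φ)
      (fun i j hij => conj_comm Q (g i) (g j) (hcomm i j hij) φ hφ)
      (adjoin_conj_eq_top hn N Q g hNabs hgen φ hφ))
  -- almost simple
  set P := ⁅N, N⁆ with hPdef
  obtain ⟨hperf, hPZ⟩ := perfect_core G Z N hZc hm hab
  have hPabs : ActsAbsolutelyIrreducibly (matrixSet P) := absIrr_of_sup P (by rw [hPZ]; exact hNabs)
  have hPH : P ≤ H := (Subgroup.commutator_mono hm.le hm.le).trans (commutator_sup_le H Z hZc)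
  have hPnorm : ∀ h ∈ G, ∀ x ∈ P, h * x * h⁻¹ ∈ P := by
    intro h hh x hx
    have hmap : N.map (MulAut.conj h).toMonoidHom ≤ N := by
      rintro _ ⟨y, hy, rfl⟩
      exact hm.norm h hh y hy
    have : (MulAut.conj h).toMonoidHom x ∈ (⁅N, N⁆).map (MulAut.conj h).toMonoidHom := ⟨x, hx, rfl⟩
    rw [Subgroup.map_commutator] at this
    exact Subgroup.commutator_mono hmap hmap this
  have hHnorm : H ≤ subgroupNormalizer P := by
    intro h hh
    unfold subgroupNormalizer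
    rw [Subgroup.mem_normalizer_iff]
    intro x
    constructor
    · exact fun hx => hPnorm h (hHG hh) x hx
    · intro hx
      have := hPnorm h⁻¹ (G.inv_mem (hHG hh)) _ hx
      simpa [mul_assoc] using this
  by_cases hsub : ∃ F₀ : Subfield F, F₀ ≠ ⊤ ∧ RealisableOver F₀ (matrixSet P)
  · obtain ⟨F₀, hF₀, B, hB⟩ := hsub
    obtain ⟨F₁, r, hle, hr, hcard⟩ := exists_prime_subfield F₀ hF₀
    exact Or.inl (Or.inr (Or.inr (Or.inr (Or.inr (Or.inl ⟨F₁, r, B⁻¹, hr, hcard,
      (hHnorm.trans (normalizer_le_subfield hn P hPabs F₀ B hB)).trans (subfieldSubgroup_mono hle _)⟩)))))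
  by_cases hsy : ∃ f : (Fin n → F) → (Fin n → F) → F, IsSymplecticForm f ∧ FixesForm (matrixSet P) f
  · obtain ⟨f, hf, hfix⟩ := hsy
    exact Or.inl (Or.inr (Or.inr (Or.inr (Or.inr (Or.inr (Or.inr (Or.inl ⟨f, hf,
      hHnorm.trans (normalizer_le_sympSim P hPabs f hf hfix)⟩)))))))
  by_cases hqu : ∃ Q : (Fin n → F) → F, IsNondegenerateQuadraticForm Q ∧ FixesQuadForm (matrixSet P) Q
  · obtain ⟨Q, hQ, hfix⟩ := hqu
    by_cases h2 : (2 : F) = 0
    · exact absurd ⟨_, polar_symplectic h2 Q hQ, polar_fixes _ Q hfix⟩ hsy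
    · exact Or.inl (Or.inr (Or.inr (Or.inr (Or.inr (Or.inr (Or.inl ⟨odd_card_of_two_ne_zero h2, Q, hQ,
        hHnorm.trans (normalizer_le_quadSim h2 P hPabs Q hQ hfix)⟩))))))
  by_cases hun : ∃ (σ : F ≃+* F) (f : (Fin n → F) → (Fin n → F) → F), IsUnitaryForm σ f ∧ FixesForm (matrixSet P) f
  · obtain ⟨σ, f, hf, hfix⟩ := hun
    exact Or.inl (Or.inr (Or.inr (Or.inr (Or.inr (Or.inr (Or.inr (Or.inr ⟨σ, f, hf,
      hHnorm.trans (normalizer_le_unitarySim P hPabs σ f hf hfix)⟩)))))))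
  refine Or.inr ⟨P, ?_, hqu, hsy, hun⟩
  exact
    { le := hPH
      normal := fun h hh x hx => hPnorm h (hHG hh) x hx
      perfect := hperf
      simple := simple_quot Z N P hPZ hm.lt hs
      nonabelian := nonabelian_quot Z P (by rw [hperf]; exact hab)
      centralizer_scalar := fun h _ hh =>
        mem_scalars_of_comm hn P hPabs h (centralizes_of_perfect Z P hZc hperf h hh)
      absIrred := hPabs
      no_subfield := fun F₀ h0 hr => hsub ⟨F₀, h0, hr⟩ }

end Cfsg.Agent.Lib.Helper5.AschC
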